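import Cfsg.Agent.Lib.H93.Fi22Mat

/-!
Kernel checks of the relations between the nine packed matrices.
-/

set_option autoImplicit false
set_option maxRecDepth 100000

namespace H93.Fi22Rel

open H93.PMat H93.Fi22Mat

theorem r_aa : chkRel 78 [Xa, Xa] 1 = true := by decide +kernel
theorem r_ab : chkRel 78 [Xa, Xb] 3 = true := by decide +kernel
theorem r_ac : chkRel 78 [Xa, Xc] 2 = true := by decide +kernel
theorem r_ad : chkRel 78 [Xa, Xd] 2 = true := by decide +kernel
theorem r_ae : chkRel 78 [Xa, Xe] 2 = true := by decide +kernel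
theorem r_af : chkRel 78 [Xa, Xf] 2 = true := by decide +kernel
theorem r_ag : chkRel 78 [Xa, Xg] 2 = true := by decide +kernel
theorem r_ah : chkRel 78 [Xa, Xh] 2 = true := by decide +kernel
theorem r_ai : chkRel 78 [Xa, Xi] 2 = true := by decide +kernel
theorem r_bb : chkRel 78 [Xb, Xb] 1 = true := by decide +kernel
theorem r_bc : chkRel 78 [Xb, Xc] 3 = true := by decide +kernel
theorem r_bd : chkRel 78 [Xb, Xd] 2 = true := by decide +kernel
theorem r_be : chkRel 78 [Xb, Xe] 2 = true := by decide +kernel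
theorem r_bf : chkRel 78 [Xb, Xf] 2 = true := by decide +kernel
theorem r_bg : chkRel 78 [Xb, Xg] 2 = true := by decide +kernel
theorem r_bh : chkRel 78 [Xb, Xh] 2 = true := by decide +kernel
theorem r_bi : chkRel 78 [Xb, Xi] 2 = true := by decide +kernel
theorem r_cc : chkRel 78 [Xc, Xc] 1 = true := by decide +kernel
theorem r_cd : chkRel 78 [Xc, Xd] 3 = true := by decide +kernel
theorem r_ce : chkRel 78 [Xc, Xe] 2 = true := by decide +kernel
theorem r_cf : chkRel 78 [Xc, Xf] 2 = true := by decide +kernel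
theorem r_cg : chkRel 78 [Xc, Xg] 2 = true := by decide +kernel
theorem r_ch : chkRel 78 [Xc, Xh] 2 = true := by decide +kernel
theorem r_ci : chkRel 78 [Xc, Xi] 2 = true := by decide +kernel
theorem r_dd : chkRel 78 [Xd, Xd] 1 = true := by decide +kernel
theorem r_de : chkRel 78 [Xd, Xe] 3 = true := by decide +kernel
theorem r_df : chkRel 78 [Xd, Xf] 2 = true := by decide +kernel
theorem r_dg : chkRel 78 [Xd, Xg] 2 = true := by decide +kernel
theorem r_dh : chkRel 78 [Xd, Xh] 3 = true := by decide +kernel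
theorem r_di : chkRel 78 [Xd, Xi] 2 = true := by decide +kernel
theorem r_ee : chkRel 78 [Xe, Xe] 1 = true := by decide +kernel
theorem r_ef : chkRel 78 [Xe, Xf] 3 = true := by decide +kernel
theorem r_eg : chkRel 78 [Xe, Xg] 2 = true := by decide +kernel
theorem r_eh : chkRel 78 [Xe, Xh] 2 = true := by decide +kernel
theorem r_ei : chkRel 78 [Xe, Xi] 2 = true := by decide +kernel
theorem r_ff : chkRel 78 [Xf, Xf] 1 = true := by decide +kernel
theorem r_fg : chkRel 78 [Xf, Xg] 3 = true := by decide +kernel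
theorem r_fh : chkRel 78 [Xf, Xh] 2 = true := by decide +kernel
theorem r_fi : chkRel 78 [Xf, Xi] 2 = true := by decide +kernel
theorem r_gg : chkRel 78 [Xg, Xg] 1 = true := by decide +kernel
theorem r_gh : chkRel 78 [Xg, Xh] 2 = true := by decide +kernel
theorem r_gi : chkRel 78 [Xg, Xi] 2 = true := by decide +kernel
theorem r_hh : chkRel 78 [Xh, Xh] 1 = true := by decide +kernel
theorem r_hi : chkRel 78 [Xh, Xi] 3 = true := by decide +kernel
theorem r_ii : chkRel 78 [Xi, Xi] 1 = true := by decide +kernel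
theorem r_sp : chkRel 78 [Xd, Xc, Xb, Xd, Xe, Xf, Xd, Xh, Xi] 10 = true := by decide +kernel
theorem r_e1 : chkRel 78 [Xa, Xb, Xc, Xd, Xe, Xf, Xh] 9 = true := by decide +kernel
theorem r_e2 : chkRel 78 [Xb, Xc, Xd, Xe, Xf, Xg, Xh] 9 = true := by decide +kernel
theorem Xa_ne : Nat.beq Xa (oneP 78) = false := by decide +kernel

end H93.Fi22Rel
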