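import Cfsg.Agent.Lib.H93.Fi22Rel
import Cfsg.Agent.Lib.H35.Fi22Main

/-! `Fi22` embeds in `GL₇₈(13)`. -/

set_option autoImplicit false

namespace H93.Fi22Emb

open H93.PMat H93.Fi22Mat H93.Fi22Rel Cfsg.Spor

theorem dig : Nat.beq (dg Xa (78 * 4 + 4)) 12 = true := by decide +kernel

theorem Ma_ne : Mx .a ≠ 1 := by
  intro h
  have h1 := congrFun (congrFun h (⟨4, by norm_num⟩ : Fin 78)) (⟨4, by norm_num⟩ : Fin 78)
  rw [Matrix.one_apply_eq] at h1
  have h2 : Mx .a (⟨4, by norm_num⟩ : Fin 78) (⟨4, by norm_num⟩ : Fin 78) = ((dg Xa (78 * 4 + 4) : ℕ) : ZMod 13) := rfl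
  rw [h2, Nat.eq_of_beq_eq_true dig] at h1
  exact absurd h1 (by decide)

theorem main : ∃ f : Fi22 →* GL (Fin 78) (ZMod 13), Function.Injective f := by
  refine ⟨rep, ?_⟩
  have hs := H35.Fi22Main.simple
  rw [← MonoidHom.ker_eq_bot_iff]
  rcases hs.eq_bot_or_eq_top_of_normal _ (inferInstance : rep.ker.Normal) with h | h
  · exact h
  · exfalso
    have h1 : (PresentedGroup.of Fi22.Gen.a : Fi22) ∈ rep.ker := by rw [h]; trivial
    have h2 : rep (PresentedGroup.of Fi22.Gen.a : Fi22) = U .a := PresentedGroup.toGroup.of rels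
    rw [MonoidHom.mem_ker, h2] at h1
    exact Ma_ne (congrArg Units.val h1)

end H93.Fi22Emb
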