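import Cfsg.Agent.Lib.H93.Fi22Chk
import Cfsg.Prelude.Def_Spor_Fi22

/-!
The nine packed matrices satisfy the presentation of `Fi22`: a homomorphism to `GL₇₈(13)`.
-/

set_option autoImplicit false
set_option maxRecDepth 100000

namespace H93.Fi22Rel

open H93.PMat H93.Fi22Mat Cfsg.Spor

attribute [local irreducible] Xa Xb Xc Xd Xe Xf Xg Xh Xi chkRel mat

/-- packed matrix of a generator -/
def X : Fi22.Gen → ℕ
  | .a => Xa | .b => Xb | .c => Xc | .d => Xd | .e => Xe | .f => Xf | .g => Xg | .h => Xh | .i => Xi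

theorem redX (x : Fi22.Gen) : Red 78 (X x) := by
  cases x
  · exact red_a
  · exact red_b
  · exact red_c
  · exact red_d
  · exact red_e
  · exact red_f
  · exact red_g
  · exact red_h
  · exact red_i


/-- matrix of a generator -/
def Mx (x : Fi22.Gen) : Matrix (Fin 78) (Fin 78) (ZMod 13) := mat 78 (X x)

theorem rel2 {x y : Fi22.Gen} {n : ℕ} (h : chkRel 78 [X x, X y] n = true) : (Mx x * Mx y) ^ n = 1 := by
  have h1 := rel_of_chk (by norm_num) (by norm_num) (w := [X x, X y]) (by
    intro z hz
    simp only [List.mem_cons, List.not_mem_nil, or_false] at hz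
    rcases hz with rfl | rfl <;> exact redX _) h
  simpa [Mx] using h1

theorem sq (x : Fi22.Gen) : Mx x * Mx x = 1 := by
  rw [← pow_one (Mx x * Mx x)]
  apply rel2
  cases x
  · exact r_aa
  · exact r_bb
  · exact r_cc
  · exact r_dd
  · exact r_ee
  · exact r_ff
  · exact r_gg
  · exact r_hh
  · exact r_ii

/-- unit of a generator -/
def U (x : Fi22.Gen) : GL (Fin 78) (ZMod 13) := ⟨Mx x, Mx x, sq x, sq x⟩

theorem relU {x y : Fi22.Gen} {n : ℕ} (h : chkRel 78 [X x, X y] n = true) : (U x * U y) ^ n = 1 := by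
  apply Units.ext
  rw [Units.val_pow_eq_pow_val, Units.val_mul, Units.val_one]
  exact rel2 h

theorem prodU_val (w : List Fi22.Gen) : ((w.map U).prod : GL (Fin 78) (ZMod 13)).val = (w.map Mx).prod := by
  induction w with
  | nil => rfl
  | cons x w ih => rw [List.map_cons, List.prod_cons, Units.val_mul, ih, List.map_cons, List.prod_cons]; rfl

theorem relW (w : List Fi22.Gen) (n : ℕ) (h : chkRel 78 (w.map X) n = true) : ((w.map U).prod) ^ n = 1 := by
  have h1 := rel_of_chk (by norm_num) (by norm_num) (w := w.map X) (by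
    intro z hz
    obtain ⟨x, _, rfl⟩ := List.mem_map.1 hz
    exact redX _) h
  rw [List.map_map] at h1
  apply Units.ext
  rw [Units.val_pow_eq_pow_val, Units.val_one, prodU_val]
  exact h1

theorem rot {K : Type*} [Group K] (x y : K) (n : ℕ) (h : (x * y) ^ n = 1) : (y * x) ^ n = 1 := by
  have e : y * x = x⁻¹ * (x * y) * (x⁻¹)⁻¹ := by group
  rw [e, conj_pow, h, mul_one, mul_inv_cancel]

theorem rotU {x y : Fi22.Gen} {n : ℕ} (h : (U x * U y) ^ n = 1) : (U y * U x) ^ n = 1 := by
  exact rot (U x) (U y) n h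

set_option maxHeartbeats 2000000 in
theorem cox (x y : Fi22.Gen) : (U x * U y) ^ coxLabel Fi22.edges x y = 1 := by
  cases x <;> cases y
  · rw [show coxLabel Fi22.edges .a .a = 1 by decide]; exact relU (x := .a) (y := .a) (n := 1) r_aa
  · rw [show coxLabel Fi22.edges .a .b = 3 by decide]; exact relU (x := .a) (y := .b) (n := 3) r_ab
  · rw [show coxLabel Fi22.edges .a .c = 2 by decide]; exact relU (x := .a) (y := .c) (n := 2) r_ac
  · rw [show coxLabel Fi22.edges .a .d = 2 by decide]; exact relU (x := .a) (y := .d) (n := 2) r_ad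
  · rw [show coxLabel Fi22.edges .a .e = 2 by decide]; exact relU (x := .a) (y := .e) (n := 2) r_ae
  · rw [show coxLabel Fi22.edges .a .f = 2 by decide]; exact relU (x := .a) (y := .f) (n := 2) r_af
  · rw [show coxLabel Fi22.edges .a .g = 2 by decide]; exact relU (x := .a) (y := .g) (n := 2) r_ag
  · rw [show coxLabel Fi22.edges .a .h = 2 by decide]; exact relU (x := .a) (y := .h) (n := 2) r_ah
  · rw [show coxLabel Fi22.edges .a .i = 2 by decide]; exact relU (x := .a) (y := .i) (n := 2) r_ai
  · rw [show coxLabel Fi22.edges .b .a = 3 by decide]; exact rotU (relU (x := .a) (y := .b) (n := 3) r_ab)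
  · rw [show coxLabel Fi22.edges .b .b = 1 by decide]; exact relU (x := .b) (y := .b) (n := 1) r_bb
  · rw [show coxLabel Fi22.edges .b .c = 3 by decide]; exact relU (x := .b) (y := .c) (n := 3) r_bc
  · rw [show coxLabel Fi22.edges .b .d = 2 by decide]; exact relU (x := .b) (y := .d) (n := 2) r_bd
  · rw [show coxLabel Fi22.edges .b .e = 2 by decide]; exact relU (x := .b) (y := .e) (n := 2) r_be
  · rw [show coxLabel Fi22.edges .b .f = 2 by decide]; exact relU (x := .b) (y := .f) (n := 2) r_bf
  · rw [show coxLabel Fi22.edges .b .g = 2 by decide]; exact relU (x := .b) (y := .g) (n := 2) r_bg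
  · rw [show coxLabel Fi22.edges .b .h = 2 by decide]; exact relU (x := .b) (y := .h) (n := 2) r_bh
  · rw [show coxLabel Fi22.edges .b .i = 2 by decide]; exact relU (x := .b) (y := .i) (n := 2) r_bi
  · rw [show coxLabel Fi22.edges .c .a = 2 by decide]; exact rotU (relU (x := .a) (y := .c) (n := 2) r_ac)
  · rw [show coxLabel Fi22.edges .c .b = 3 by decide]; exact rotU (relU (x := .b) (y := .c) (n := 3) r_bc)
  · rw [show coxLabel Fi22.edges .c .c = 1 by decide]; exact relU (x := .c) (y := .c) (n := 1) r_cc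
  · rw [show coxLabel Fi22.edges .c .d = 3 by decide]; exact relU (x := .c) (y := .d) (n := 3) r_cd
  · rw [show coxLabel Fi22.edges .c .e = 2 by decide]; exact relU (x := .c) (y := .e) (n := 2) r_ce
  · rw [show coxLabel Fi22.edges .c .f = 2 by decide]; exact relU (x := .c) (y := .f) (n := 2) r_cf
  · rw [show coxLabel Fi22.edges .c .g = 2 by decide]; exact relU (x := .c) (y := .g) (n := 2) r_cg
  · rw [show coxLabel Fi22.edges .c .h = 2 by decide]; exact relU (x := .c) (y := .h) (n := 2) r_ch
  · rw [show coxLabel Fi22.edges .c .i = 2 by decide]; exact relU (x := .c) (y := .i) (n := 2) r_ci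
  · rw [show coxLabel Fi22.edges .d .a = 2 by decide]; exact rotU (relU (x := .a) (y := .d) (n := 2) r_ad)
  · rw [show coxLabel Fi22.edges .d .b = 2 by decide]; exact rotU (relU (x := .b) (y := .d) (n := 2) r_bd)
  · rw [show coxLabel Fi22.edges .d .c = 3 by decide]; exact rotU (relU (x := .c) (y := .d) (n := 3) r_cd)
  · rw [show coxLabel Fi22.edges .d .d = 1 by decide]; exact relU (x := .d) (y := .d) (n := 1) r_dd
  · rw [show coxLabel Fi22.edges .d .e = 3 by decide]; exact relU (x := .d) (y := .e) (n := 3) r_de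
  · rw [show coxLabel Fi22.edges .d .f = 2 by decide]; exact relU (x := .d) (y := .f) (n := 2) r_df
  · rw [show coxLabel Fi22.edges .d .g = 2 by decide]; exact relU (x := .d) (y := .g) (n := 2) r_dg
  · rw [show coxLabel Fi22.edges .d .h = 3 by decide]; exact relU (x := .d) (y := .h) (n := 3) r_dh
  · rw [show coxLabel Fi22.edges .d .i = 2 by decide]; exact relU (x := .d) (y := .i) (n := 2) r_di
  · rw [show coxLabel Fi22.edges .e .a = 2 by decide]; exact rotU (relU (x := .a) (y := .e) (n := 2) r_ae)
  · rw [show coxLabel Fi22.edges .e .b = 2 by decide]; exact rotU (relU (x := .b) (y := .e) (n := 2) r_be)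
  · rw [show coxLabel Fi22.edges .e .c = 2 by decide]; exact rotU (relU (x := .c) (y := .e) (n := 2) r_ce)
  · rw [show coxLabel Fi22.edges .e .d = 3 by decide]; exact rotU (relU (x := .d) (y := .e) (n := 3) r_de)
  · rw [show coxLabel Fi22.edges .e .e = 1 by decide]; exact relU (x := .e) (y := .e) (n := 1) r_ee
  · rw [show coxLabel Fi22.edges .e .f = 3 by decide]; exact relU (x := .e) (y := .f) (n := 3) r_ef
  · rw [show coxLabel Fi22.edges .e .g = 2 by decide]; exact relU (x := .e) (y := .g) (n := 2) r_eg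
  · rw [show coxLabel Fi22.edges .e .h = 2 by decide]; exact relU (x := .e) (y := .h) (n := 2) r_eh
  · rw [show coxLabel Fi22.edges .e .i = 2 by decide]; exact relU (x := .e) (y := .i) (n := 2) r_ei
  · rw [show coxLabel Fi22.edges .f .a = 2 by decide]; exact rotU (relU (x := .a) (y := .f) (n := 2) r_af)
  · rw [show coxLabel Fi22.edges .f .b = 2 by decide]; exact rotU (relU (x := .b) (y := .f) (n := 2) r_bf)
  · rw [show coxLabel Fi22.edges .f .c = 2 by decide]; exact rotU (relU (x := .c) (y := .f) (n := 2) r_cf)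
  · rw [show coxLabel Fi22.edges .f .d = 2 by decide]; exact rotU (relU (x := .d) (y := .f) (n := 2) r_df)
  · rw [show coxLabel Fi22.edges .f .e = 3 by decide]; exact rotU (relU (x := .e) (y := .f) (n := 3) r_ef)
  · rw [show coxLabel Fi22.edges .f .f = 1 by decide]; exact relU (x := .f) (y := .f) (n := 1) r_ff
  · rw [show coxLabel Fi22.edges .f .g = 3 by decide]; exact relU (x := .f) (y := .g) (n := 3) r_fg
  · rw [show coxLabel Fi22.edges .f .h = 2 by decide]; exact relU (x := .f) (y := .h) (n := 2) r_fh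
  · rw [show coxLabel Fi22.edges .f .i = 2 by decide]; exact relU (x := .f) (y := .i) (n := 2) r_fi
  · rw [show coxLabel Fi22.edges .g .a = 2 by decide]; exact rotU (relU (x := .a) (y := .g) (n := 2) r_ag)
  · rw [show coxLabel Fi22.edges .g .b = 2 by decide]; exact rotU (relU (x := .b) (y := .g) (n := 2) r_bg)
  · rw [show coxLabel Fi22.edges .g .c = 2 by decide]; exact rotU (relU (x := .c) (y := .g) (n := 2) r_cg)
  · rw [show coxLabel Fi22.edges .g .d = 2 by decide]; exact rotU (relU (x := .d) (y := .g) (n := 2) r_dg)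
  · rw [show coxLabel Fi22.edges .g .e = 2 by decide]; exact rotU (relU (x := .e) (y := .g) (n := 2) r_eg)
  · rw [show coxLabel Fi22.edges .g .f = 3 by decide]; exact rotU (relU (x := .f) (y := .g) (n := 3) r_fg)
  · rw [show coxLabel Fi22.edges .g .g = 1 by decide]; exact relU (x := .g) (y := .g) (n := 1) r_gg
  · rw [show coxLabel Fi22.edges .g .h = 2 by decide]; exact relU (x := .g) (y := .h) (n := 2) r_gh
  · rw [show coxLabel Fi22.edges .g .i = 2 by decide]; exact relU (x := .g) (y := .i) (n := 2) r_gi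
  · rw [show coxLabel Fi22.edges .h .a = 2 by decide]; exact rotU (relU (x := .a) (y := .h) (n := 2) r_ah)
  · rw [show coxLabel Fi22.edges .h .b = 2 by decide]; exact rotU (relU (x := .b) (y := .h) (n := 2) r_bh)
  · rw [show coxLabel Fi22.edges .h .c = 2 by decide]; exact rotU (relU (x := .c) (y := .h) (n := 2) r_ch)
  · rw [show coxLabel Fi22.edges .h .d = 3 by decide]; exact rotU (relU (x := .d) (y := .h) (n := 3) r_dh)
  · rw [show coxLabel Fi22.edges .h .e = 2 by decide]; exact rotU (relU (x := .e) (y := .h) (n := 2) r_eh)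
  · rw [show coxLabel Fi22.edges .h .f = 2 by decide]; exact rotU (relU (x := .f) (y := .h) (n := 2) r_fh)
  · rw [show coxLabel Fi22.edges .h .g = 2 by decide]; exact rotU (relU (x := .g) (y := .h) (n := 2) r_gh)
  · rw [show coxLabel Fi22.edges .h .h = 1 by decide]; exact relU (x := .h) (y := .h) (n := 1) r_hh
  · rw [show coxLabel Fi22.edges .h .i = 3 by decide]; exact relU (x := .h) (y := .i) (n := 3) r_hi
  · rw [show coxLabel Fi22.edges .i .a = 2 by decide]; exact rotU (relU (x := .a) (y := .i) (n := 2) r_ai)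
  · rw [show coxLabel Fi22.edges .i .b = 2 by decide]; exact rotU (relU (x := .b) (y := .i) (n := 2) r_bi)
  · rw [show coxLabel Fi22.edges .i .c = 2 by decide]; exact rotU (relU (x := .c) (y := .i) (n := 2) r_ci)
  · rw [show coxLabel Fi22.edges .i .d = 2 by decide]; exact rotU (relU (x := .d) (y := .i) (n := 2) r_di)
  · rw [show coxLabel Fi22.edges .i .e = 2 by decide]; exact rotU (relU (x := .e) (y := .i) (n := 2) r_ei)
  · rw [show coxLabel Fi22.edges .i .f = 2 by decide]; exact rotU (relU (x := .f) (y := .i) (n := 2) r_fi)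
  · rw [show coxLabel Fi22.edges .i .g = 2 by decide]; exact rotU (relU (x := .g) (y := .i) (n := 2) r_gi)
  · rw [show coxLabel Fi22.edges .i .h = 3 by decide]; exact rotU (relU (x := .h) (y := .i) (n := 3) r_hi)
  · rw [show coxLabel Fi22.edges .i .i = 1 by decide]; exact relU (x := .i) (y := .i) (n := 1) r_ii

theorem ex_sp : (U .d * U .c * U .b * U .d * U .e * U .f * U .d * U .h * U .i) ^ 10 = 1 := by
  have h := relW [.d, .c, .b, .d, .e, .f, .d, .h, .i] 10 r_sp
  simpa only [List.map_cons, List.map_nil, List.prod_cons, List.prod_nil, mul_one, mul_assoc] using h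


theorem ex_e1 : (U .a * U .b * U .c * U .d * U .e * U .f * U .h) ^ 9 = 1 := by
  have h := relW [.a, .b, .c, .d, .e, .f, .h] 9 r_e1
  simpa only [List.map_cons, List.map_nil, List.prod_cons, List.prod_nil, mul_one, mul_assoc] using h


theorem ex_e2 : (U .b * U .c * U .d * U .e * U .f * U .g * U .h) ^ 9 = 1 := by
  have h := relW [.b, .c, .d, .e, .f, .g, .h] 9 r_e2
  simpa only [List.map_cons, List.map_nil, List.prod_cons, List.prod_nil, mul_one, mul_assoc] using h


theorem rels : ∀ r ∈ (coxRelators Fi22.edges ∪ {r | r ∈ Fi22.extra}), FreeGroup.lift U r = 1 := by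
  rintro r (⟨x, _, y, _, rfl⟩ | hr)
  · simp only [map_pow, map_mul, FreeGroup.lift_apply_of]
    exact cox x y
  · have hr' : r ∈ Fi22.extra := hr
    simp only [Fi22.extra, List.mem_cons, List.not_mem_nil, or_false] at hr'
    rcases hr' with rfl | rfl | rfl
    · simp only [map_pow, map_mul, FreeGroup.lift_apply_of]
      exact ex_sp
    · simp only [map_pow, map_mul, FreeGroup.lift_apply_of]
      exact ex_e1
    · simp only [map_pow, map_mul, FreeGroup.lift_apply_of]
      exact ex_e2

/-- the representation -/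
def rep : Fi22 →* GL (Fin 78) (ZMod 13) := PresentedGroup.toGroup rels


end H93.Fi22Rel
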