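import Mathlib
import Cfsg.Prelude.Def_AxialAlgebras

set_option autoImplicit false

namespace H93.Majorana

open Cfsg Cfsg.Axial

section General

variable {F : Type*} [Field F] {V : Type*} [AddCommGroup V] [Module F V]

theorem mem_eigen {mul : V →ₗ[F] V →ₗ[F] V} {a : V} {c : F} {v : V} :
    v ∈ eigen mul a c ↔ mul a v = c • v := Module.End.mem_eigenspace_iff

theorem eigenSum_singleton (mul : V →ₗ[F] V →ₗ[F] V) (a : V) (c : F) :
    eigenSum mul a {c} = eigen mul a c := by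
  simp [eigenSum]

theorem eigenSum_pair (mul : V →ₗ[F] V →ₗ[F] V) (a : V) (c d : F) :
    eigenSum mul a {c, d} = eigen mul a c ⊔ eigen mul a d := by
  simp only [eigenSum, iSup_insert, iSup_singleton]

theorem eigenSum_triple (mul : V →ₗ[F] V →ₗ[F] V) (a : V) (c d e : F) :
    eigenSum mul a {c, d, e} = eigen mul a c ⊔ (eigen mul a d ⊔ eigen mul a e) := by
  simp only [eigenSum, iSup_insert, iSup_singleton]

end General

section Real

variable {V : Type*} [AddCommGroup V] [Module ℝ V]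
variable {mul : V →ₗ[ℝ] V →ₗ[ℝ] V} {B : LinearMap.BilinForm ℝ V}

theorem comm (hV : IsMajoranaAmbient mul B) (u v : V) : mul u v = mul v u := hV.1 u v

theorem symm (hV : IsMajoranaAmbient mul B) (u v : V) : B u v = B v u := hV.2.1 u v

theorem assoc (hV : IsMajoranaAmbient mul B) (u v w : V) : B u (mul v w) = B (mul u v) w :=
  hV.2.2.2.1 u v w

theorem eq_zero_of_norm (hV : IsMajoranaAmbient mul B) {u : V} (h : B u u = 0) : u = 0 := by
  by_contra hne
  have := hV.2.2.1 u hne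
  linarith

theorem norm_nonneg (hV : IsMajoranaAmbient mul B) (u : V) : 0 ≤ B u u := by
  by_cases h : u = 0
  · simp [h]
  · exact (hV.2.2.1 u h).le

theorem norton (hV : IsMajoranaAmbient mul B) (u v : V) :
    B (mul u v) (mul u v) ≤ B (mul u u) (mul v v) := hV.2.2.2.2 u v

/-- eigenvectors for different eigenvalues are orthogonal -/
theorem orth (hV : IsMajoranaAmbient mul B) {a u v : V} {c d : ℝ} (hcd : c ≠ d)
    (hu : mul a u = c • u) (hv : mul a v = d • v) : B u v = 0 := by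
  have h1 : B u (mul a v) = B (mul a u) v := by
    rw [assoc hV, comm hV u a]
  rw [hu, hv] at h1
  simp only [map_smul, LinearMap.smul_apply, smul_eq_mul] at h1
  have h2 : (c - d) * B u v = 0 := by linarith
  rcases mul_eq_zero.mp h2 with h | h
  · exact absurd (by linarith) hcd
  · exact h

/-- The data of an axis, in elementary form. -/
structure Ax (mul : V →ₗ[ℝ] V →ₗ[ℝ] V) (a : V) : Prop where
  ne : a ≠ 0
  idem : mul a a = a
  prim : ∀ v, mul a v = v → ∃ c : ℝ, v = c • a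
  dec : ∀ x : V, ∃ c : ℝ, ∃ u v w : V, x = c • a + u + v + w ∧ mul a u = 0 ∧
    mul a v = (1 / 4 : ℝ) • v ∧ mul a w = (1 / 32 : ℝ) • w
  f00 : ∀ u v, mul a u = 0 → mul a v = 0 → mul a (mul u v) = 0
  f0a : ∀ u v, mul a u = 0 → mul a v = (1 / 4 : ℝ) • v → mul a (mul u v) = (1 / 4 : ℝ) • mul u v
  f0b : ∀ u v, mul a u = 0 → mul a v = (1 / 32 : ℝ) • v → mul a (mul u v) = (1 / 32 : ℝ) • mul u v
  fab : ∀ u v, mul a u = (1 / 4 : ℝ) • u → mul a v = (1 / 32 : ℝ) • v →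
    mul a (mul u v) = (1 / 32 : ℝ) • mul u v
  faa : ∀ u v, mul a u = (1 / 4 : ℝ) • u → mul a v = (1 / 4 : ℝ) • v →
    ∃ c : ℝ, ∃ z : V, mul u v = c • a + z ∧ mul a z = 0
  fbb : ∀ u v, mul a u = (1 / 32 : ℝ) • u → mul a v = (1 / 32 : ℝ) • v →
    ∃ c : ℝ, ∃ z t : V, mul u v = c • a + z + t ∧ mul a z = 0 ∧ mul a t = (1 / 4 : ℝ) • t

theorem monsterLaw_00 : monsterLaw (1 / 4 : ℝ) (1 / 32) 0 0 = {0} := by
  unfold monsterLaw; norm_num

theorem monsterLaw_0a : monsterLaw (1 / 4 : ℝ) (1 / 32) 0 (1 / 4) = {1 / 4} := by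
  unfold monsterLaw; norm_num

theorem monsterLaw_0b : monsterLaw (1 / 4 : ℝ) (1 / 32) 0 (1 / 32) = {1 / 32} := by
  unfold monsterLaw; norm_num

theorem monsterLaw_ab : monsterLaw (1 / 4 : ℝ) (1 / 32) (1 / 4) (1 / 32) = {1 / 32} := by
  unfold monsterLaw; norm_num

theorem monsterLaw_aa : monsterLaw (1 / 4 : ℝ) (1 / 32) (1 / 4) (1 / 4) = {1, 0} := by
  unfold monsterLaw; norm_num

theorem monsterLaw_bb : monsterLaw (1 / 4 : ℝ) (1 / 32) (1 / 32) (1 / 32) = {1, 0, 1 / 4} := by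
  unfold monsterLaw; norm_num

theorem ax_of_primitive {a : V}
    (h : IsPrimitiveAxis mul (monsterLaw (1 / 4) (1 / 32)) majoranaSpectrum a) : Ax mul a := by
  obtain ⟨⟨hne, hid, hsum, hfus⟩, hprim⟩ := h
  have hp : ∀ v, mul a v = v → ∃ c : ℝ, v = c • a := by
    intro v hv
    have h1 : v ∈ eigen mul a 1 := mem_eigen.mpr (by rw [hv, one_smul])
    rw [hprim, Submodule.mem_span_singleton] at h1
    obtain ⟨c, hc⟩ := h1
    exact ⟨c, hc.symm⟩
  have z0 : ∀ {v : V}, mul a v = 0 ↔ v ∈ eigen mul a 0 := by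
    intro v; rw [mem_eigen, zero_smul]
  have m1 : (1 : ℝ) ∈ majoranaSpectrum := by simp [majoranaSpectrum]
  have m0 : (0 : ℝ) ∈ majoranaSpectrum := by simp [majoranaSpectrum]
  have ma : (1 / 4 : ℝ) ∈ majoranaSpectrum := by simp [majoranaSpectrum]
  have mb : (1 / 32 : ℝ) ∈ majoranaSpectrum := by simp [majoranaSpectrum]
  refine ⟨hne, hid, hp, ?_, ?_, ?_, ?_, ?_, ?_, ?_⟩
  · intro x
    have hx : x ∈ eigenSum mul a majoranaSpectrum := by rw [hsum]; trivial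
    have hs : eigenSum mul a majoranaSpectrum =
        eigen mul a 1 ⊔ (eigen mul a 0 ⊔ (eigen mul a (1 / 4) ⊔ eigen mul a (1 / 32))) := by
      simp only [eigenSum, majoranaSpectrum, iSup_insert, iSup_singleton]
    rw [hs] at hx
    obtain ⟨y1, hy1, r1, hr1, rfl⟩ := Submodule.mem_sup.mp hx
    obtain ⟨y2, hy2, r2, hr2, rfl⟩ := Submodule.mem_sup.mp hr1
    obtain ⟨y3, hy3, y4, hy4, rfl⟩ := Submodule.mem_sup.mp hr2
    have h1 := mem_eigen.mp hy1
    rw [one_smul] at h1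
    obtain ⟨c, rfl⟩ := hp y1 h1
    exact ⟨c, y2, y3, y4, by abel, z0.mpr hy2, mem_eigen.mp hy3, mem_eigen.mp hy4⟩
  · intro u v hu hv
    have := hfus 0 m0 0 m0 u (z0.mp hu) v (z0.mp hv)
    rw [monsterLaw_00, eigenSum_singleton] at this
    exact z0.mpr this
  · intro u v hu hv
    have := hfus 0 m0 (1 / 4) ma u (z0.mp hu) v (mem_eigen.mpr hv)
    rw [monsterLaw_0a, eigenSum_singleton] at this
    exact mem_eigen.mp this
  · intro u v hu hv
    have := hfus 0 m0 (1 / 32) mb u (z0.mp hu) v (mem_eigen.mpr hv)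
    rw [monsterLaw_0b, eigenSum_singleton] at this
    exact mem_eigen.mp this
  · intro u v hu hv
    have := hfus (1 / 4) ma (1 / 32) mb u (mem_eigen.mpr hu) v (mem_eigen.mpr hv)
    rw [monsterLaw_ab, eigenSum_singleton] at this
    exact mem_eigen.mp this
  · intro u v hu hv
    have := hfus (1 / 4) ma (1 / 4) ma u (mem_eigen.mpr hu) v (mem_eigen.mpr hv)
    rw [monsterLaw_aa, eigenSum_pair] at this
    obtain ⟨y1, hy1, y2, hy2, h⟩ := Submodule.mem_sup.mp this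
    have h1 := mem_eigen.mp hy1
    rw [one_smul] at h1
    obtain ⟨c, rfl⟩ := hp y1 h1
    exact ⟨c, y2, h.symm, z0.mpr hy2⟩
  · intro u v hu hv
    have := hfus (1 / 32) mb (1 / 32) mb u (mem_eigen.mpr hu) v (mem_eigen.mpr hv)
    rw [monsterLaw_bb, eigenSum_triple] at this
    obtain ⟨y1, hy1, r, hr, h⟩ := Submodule.mem_sup.mp this
    obtain ⟨y2, hy2, y3, hy3, h'⟩ := Submodule.mem_sup.mp hr
    have h1 := mem_eigen.mp hy1
    rw [one_smul] at h1
    obtain ⟨c, rfl⟩ := hp y1 h1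
    refine ⟨c, y2, y3, ?_, z0.mpr hy2, mem_eigen.mp hy3⟩
    rw [← h, ← h']; abel

/-- The Miyamoto involution acts as expected. -/
theorem miy {a : V} {τ : V →ₗ[ℝ] V} (h : IsMiyamotoMap mul a {1, 0, 1 / 4} (1 / 32) τ) :
    (∀ v, mul a v = v → τ v = v) ∧ (∀ v, mul a v = 0 → τ v = v) ∧
    (∀ v, mul a v = (1 / 4 : ℝ) • v → τ v = v) ∧ (∀ v, mul a v = (1 / 32 : ℝ) • v → τ v = -v) := by
  obtain ⟨h1, h2⟩ := h
  rw [eigenSum_triple] at h1
  refine ⟨fun v hv => h1 v ?_, fun v hv => h1 v ?_, fun v hv => h1 v ?_,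
    fun v hv => h2 v (mem_eigen.mpr hv)⟩
  · exact Submodule.mem_sup_left (mem_eigen.mpr (by rw [hv, one_smul]))
  · exact Submodule.mem_sup_right (Submodule.mem_sup_left (mem_eigen.mpr (by rw [hv, zero_smul])))
  · exact Submodule.mem_sup_right (Submodule.mem_sup_right (mem_eigen.mpr hv))

/-- Elementary form of a Majorana pair. -/
structure MP (mul : V →ₗ[ℝ] V →ₗ[ℝ] V) (B : LinearMap.BilinForm ℝ V) (μ : V ≃ₗ[ℝ] V) (a : V) :
    Prop where
  hmul : ∀ u v : V, μ (mul u v) = mul (μ u) (μ v)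
  hB : ∀ u v : V, B (μ u) (μ v) = B u v
  ax : Ax mul a
  m1 : μ a = a
  m0 : ∀ v, mul a v = 0 → μ v = v
  ma : ∀ v, mul a v = (1 / 4 : ℝ) • v → μ v = v
  mb : ∀ v, mul a v = (1 / 32 : ℝ) • v → μ v = -v

theorem mp_of_pair {μ : V ≃ₗ[ℝ] V} {a : V} (h : IsMajoranaPair mul B μ a) : MP mul B μ a := by
  obtain ⟨h1, h2, h3, h4⟩ := h
  have hax := ax_of_primitive h3
  obtain ⟨k1, k2, k3, k4⟩ := miy h4
  exact ⟨h1, h2, hax, k1 a hax.idem, k2, k3, k4⟩

/-- `μ` is an involution. -/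
theorem MP.invol {μ : V ≃ₗ[ℝ] V} {a : V} (h : MP mul B μ a) (x : V) : μ (μ x) = x := by
  obtain ⟨c, u, v, w, rfl, hu, hv, hw⟩ := h.ax.dec x
  simp only [map_add, map_smul, h.m1, h.m0 u hu, h.ma v hv, h.mb w hw, map_neg, neg_neg]

/-- a vector fixed by `μ` has no `1/32`-part -/
theorem MP.dec_fixed {μ : V ≃ₗ[ℝ] V} {a : V} (h : MP mul B μ a) (x : V) (hx : μ x = x) :
    ∃ c : ℝ, ∃ u v : V, x = c • a + u + v ∧ mul a u = 0 ∧ mul a v = (1 / 4 : ℝ) • v := by
  obtain ⟨c, u, v, w, rfl, hu, hv, hw⟩ := h.ax.dec x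
  simp only [map_add, map_smul, h.m1, h.m0 u hu, h.ma v hv, h.mb w hw] at hx
  have hw0 : (2 : ℝ) • w = 0 := by
    have := sub_eq_zero.mpr hx.symm
    rw [← this]
    (module)
  have : w = 0 := by
    rcases smul_eq_zero.mp hw0 with h | h
    · norm_num at h
    · exact h
  subst this
  exact ⟨c, u, v, by simp, hu, hv⟩

/-- the conjugate of a Majorana pair by an automorphism -/
theorem conj_pair {μ σ : V ≃ₗ[ℝ] V} {a : V} (h : IsMajoranaPair mul B μ a)
    (hσ : ∀ u v : V, σ (mul u v) = mul (σ u) (σ v)) (hσB : ∀ u v : V, B (σ u) (σ v) = B u v) :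
    IsMajoranaPair mul B (σ * μ * σ⁻¹) (σ a) := by
  have hσ' : ∀ u v : V, σ⁻¹ (mul u v) = mul (σ⁻¹ u) (σ⁻¹ v) := by
    intro u v
    apply σ.injective
    rw [hσ]
    have : ∀ x, σ (σ⁻¹ x) = x := fun x => σ.apply_symm_apply x
    rw [this, this, this]
  have hss : ∀ x, σ (σ⁻¹ x) = x := fun x => σ.apply_symm_apply x
  have hss' : ∀ x, σ⁻¹ (σ x) = x := fun x => σ.symm_apply_apply x
  have hσB' : ∀ u v : V, B (σ⁻¹ u) (σ⁻¹ v) = B u v := by
    intro u v
    rw [← hσB, hss, hss]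
  obtain ⟨h1, h2, ⟨⟨hne, hid, hsum, hfus⟩, hprim⟩, hm1, hm2⟩ := h
  have heig : ∀ c : ℝ, eigen mul (σ a) c = (eigen mul a c).map (σ : V →ₗ[ℝ] V) := by
    intro c
    ext v
    rw [mem_eigen, Submodule.mem_map]
    constructor
    · intro hv
      refine ⟨σ⁻¹ v, mem_eigen.mpr ?_, hss v⟩
      apply σ.injective
      rw [hσ, map_smul, hss, hv]
    · rintro ⟨y, hy, rfl⟩
      have := mem_eigen.mp hy
      show mul (σ a) (σ y) = c • σ y
      rw [← hσ, this, map_smul]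
  have hsumeq : ∀ S : Set ℝ, eigenSum mul (σ a) S = (eigenSum mul a S).map (σ : V →ₗ[ℝ] V) := by
    intro S
    unfold eigenSum
    rw [Submodule.map_iSup]
    congr 1
    ext c : 1
    rw [Submodule.map_iSup]
    congr 1
    ext hc : 1
    rw [heig]
  refine ⟨?_, ?_, ⟨⟨?_, ?_, ?_, ?_⟩, ?_⟩, ?_, ?_⟩
  · intro u v
    show σ (μ (σ⁻¹ (mul u v))) = mul (σ (μ (σ⁻¹ u))) (σ (μ (σ⁻¹ v)))
    rw [hσ', h1, hσ]
  · intro u v
    show B (σ (μ (σ⁻¹ u))) (σ (μ (σ⁻¹ v))) = B u v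
    rw [hσB, h2, hσB']
  · intro h0
    exact hne (by simpa using h0)
  · rw [← hσ, hid]
  · rw [hsumeq, hsum, Submodule.map_top]
    exact LinearEquiv.range σ
  · intro c hc d hd u hu v hv
    rw [heig] at hu hv
    obtain ⟨u', hu', rfl⟩ := hu
    obtain ⟨v', hv', rfl⟩ := hv
    rw [hsumeq]
    exact ⟨mul u' v', hfus c hc d hd u' hu' v' hv', hσ u' v'⟩
  · rw [heig, hprim, Submodule.map_span, Set.image_singleton]
    rfl
  · intro v hv
    rw [hsumeq] at hv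
    obtain ⟨v', hv', rfl⟩ := hv
    show σ (μ (σ⁻¹ (σ v'))) = σ v'
    rw [hss']
    exact congrArg σ (hm1 v' hv')
  · intro v hv
    rw [heig] at hv
    obtain ⟨v', hv', rfl⟩ := hv
    show σ (μ (σ⁻¹ (σ v'))) = -σ v'
    rw [hss', ← map_neg]
    exact congrArg σ (hm2 v' hv')

end Real

end H93.Majorana
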