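import Cfsg.Agent.Lib.H93.Majorana

/-!
Towards Sakuma's theorem: product formulas in dihedral Majorana algebras.
-/

set_option autoImplicit false

namespace H93.Sakuma

open Cfsg Cfsg.Axial H93.Majorana

variable {V : Type*} [AddCommGroup V] [Module ℝ V]
variable {mul : V →ₗ[ℝ] V →ₗ[ℝ] V} {B : LinearMap.BilinForm ℝ V}

/-- `a x - x/32` is fixed by the Majorana involution -/
theorem fix_prod {μ : V ≃ₗ[ℝ] V} {a : V} (P : MP mul B μ a) (x : V) :
    μ (mul a x - (1 / 32 : ℝ) • x) = mul a x - (1 / 32 : ℝ) • x := by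
  obtain ⟨c, u, v, w, rfl, hu, hv, hw⟩ := P.ax.dec x
  simp only [map_add, map_sub, map_smul, P.m1, P.m0 u hu, P.ma v hv, P.mb w hw, hu, hv, hw, P.ax.idem, map_zero]
  (module)

/-- data of a vector relative to an axis: the `0` and `1/4` parts -/
theorem parts (hV : IsMajoranaAmbient mul B) {μ : V ≃ₗ[ℝ] V} {a x y s : V} {l : ℝ} (P : MP mul B μ a)
    (hn : B a a = 1) (hl : B a x = l) (hy : μ x = y) (hs : mul a x = s + (1 / 32 : ℝ) • (a + x)) :
    mul a ((7 / 16 : ℝ) • (x + y) + (3 * l - 1 / 8) • a - (4 : ℝ) • s) = 0 ∧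
    mul a ((4 : ℝ) • s - (4 * (l - 1 / 32)) • a + (1 / 16 : ℝ) • (x + y)) =
      (1 / 4 : ℝ) • ((4 : ℝ) • s - (4 * (l - 1 / 32)) • a + (1 / 16 : ℝ) • (x + y)) ∧
    mul a s = (3 / 4 * l - 25 / 1024) • a + (7 / 32 : ℝ) • s + (7 / 2048 : ℝ) • (x + y) := by
  obtain ⟨c, u, v, w, hx, hu, hv, hw⟩ := P.ax.dec x
  have hid := P.ax.idem
  have hau : B a u = 0 := orth hV (a := a) (c := 1) (d := 0) (by norm_num) (by rw [hid, one_smul]) (by rw [hu, zero_smul])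
  have hav : B a v = 0 := orth hV (a := a) (c := 1) (d := 1 / 4) (by norm_num) (by rw [hid, one_smul]) hv
  have haw : B a w = 0 := orth hV (a := a) (c := 1) (d := 1 / 32) (by norm_num) (by rw [hid, one_smul]) hw
  have hc : c = l := by
    rw [← hl, hx]; simp [hn, hau, hav, haw]
  subst hc
  have hy' : y = c • a + u + v - w := by
    rw [← hy, hx]
    simp only [map_add, map_smul, P.m1, P.m0 u hu, P.ma v hv, P.mb w hw]
    (module)
  have hs' : s = (31 / 32 * c - 1 / 32) • a - (1 / 32 : ℝ) • u + (7 / 32 : ℝ) • v := by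
    have h1 : s = mul a x - (1 / 32 : ℝ) • (a + x) := by rw [hs]; module
    rw [h1, hx]
    simp only [map_add, map_smul, hid, hu, hv, hw]
    (module)
  refine ⟨?_, ?_, ?_⟩
  · rw [hs', hy', hx]
    simp only [map_add, map_sub, map_smul, hid, hu, hv, hw]
    (module)
  · rw [hs', hy', hx]
    simp only [map_add, map_sub, map_smul, hid, hu, hv, hw]
    (module)
  · rw [hs', hy', hx]
    simp only [map_add, map_sub, map_smul, hid, hu, hv, hw]
    (module)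

/-- the two main product formulas -/
theorem main_formulas (hV : IsMajoranaAmbient mul B) {μ : V ≃ₗ[ℝ] V} {a x y x2 y2 s T0 T1 : V} {l m : ℝ}
    (P : MP mul B μ a) (hn : B a a = 1) (hnx : B x x = 1) (hl : B a x = l) (hly : B a y = l) (hm : B x y = m) (hy : μ x = y)
    (hxx : mul x x = x) (hyy : mul y y = y)
    (hax : mul a x = s + (1 / 32 : ℝ) • (a + x)) (hay : mul a y = s + (1 / 32 : ℝ) • (a + y))
    (hax2 : mul a x2 = T0 + (1 / 32 : ℝ) • (a + x2)) (hay2 : mul a y2 = T0 + (1 / 32 : ℝ) • (a + y2))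
    (hxy : mul x y = T1 + (1 / 32 : ℝ) • (x + y))
    (hxs : mul x s = (3 / 4 * l - 25 / 1024) • x + (7 / 32 : ℝ) • s + (7 / 2048 : ℝ) • (x2 + a))
    (hys : mul y s = (3 / 4 * l - 25 / 1024) • y + (7 / 32 : ℝ) • s + (7 / 2048 : ℝ) • (a + y2)) :
    mul a T1 = (32 / 3 * l - 19 / 48) • s + (7 / 96 : ℝ) • T0 + (1 / 6 * l - 19 / 3072) • (x + y) +
      (7 / 6144 : ℝ) • (x2 + y2) + (-127 / 3072 - 1 / 24 * m + 5 / 3 * l - 32 / 3 * l ^ 2) • a ∧
    mul s s = (-13 / 1536 - 5 / 12 * l) • s - (7 / 1536 : ℝ) • T0 + (7 / 2048 : ℝ) • T1 +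
      (49 / 768 * l - 245 / 196608) • (x + y) + (49 / 196608 : ℝ) • (x2 + y2) +
      (-7 / 98304 + 7 / 1536 * m - 7 / 384 * l + 7 / 6 * l ^ 2) • a := by
  have hid := P.ax.idem
  obtain ⟨hα, hβ, has⟩ := parts hV P hn hl hy hax
  set α : V := (7 / 16 : ℝ) • (x + y) + (3 * l - 1 / 8) • a - (4 : ℝ) • s with hαd
  set β : V := (4 : ℝ) • s - (4 * (l - 1 / 32)) • a + (1 / 16 : ℝ) • (x + y) with hβd
  have hsum : α + β = (1 / 2 : ℝ) • (x + y) - l • a := by rw [hαd, hβd]; module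
  -- fusion rules
  have f00 := P.ax.f00 α α hα hα
  have f0a := P.ax.f0a α β hα hβ
  obtain ⟨c, z, hz, hz0⟩ := P.ax.faa β β hβ hβ
  -- the constant c
  have haβ : B a β = 0 := orth hV (a := a) (c := 1) (d := 1 / 4) (by norm_num) (by rw [hid, one_smul]) hβ
  have haz : B a z = 0 := orth hV (a := a) (c := 1) (d := 0) (by norm_num) (by rw [hid, one_smul]) (by rw [hz0, zero_smul])
  have hc : c = 1 / 4 * B β β := by
    have h1 : B a (mul β β) = B (mul a β) β := assoc hV a β β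
    rw [hz, hβ] at h1
    simp only [map_add, map_smul, LinearMap.smul_apply, smul_eq_mul, hn, haz] at h1
    linarith
  have hβα : B β α = 0 := orth hV (a := a) (c := 1 / 4) (d := 0) (by norm_num) hβ (by rw [hα, zero_smul])
  have hβx : B β x = B β y := by
    have h1 : B (μ β) (μ x) = B β x := P.hB β x
    rw [P.ma β hβ, hy] at h1
    exact h1.symm
  have hβa : B β a = 0 := by rw [symm hV]; exact haβ
  have hβS : B β β = 1 / 2 * (B β x + B β y) := by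
    have h1 : B β (α + β) = B β ((1 / 2 : ℝ) • (x + y) - l • a) := by rw [hsum]
    simp only [map_add, map_sub, map_smul, smul_eq_mul, hβα, hβa] at h1
    linarith
  have hsx : B s x = l - 1 / 32 * (l + 1) := by
    have h1 : B a (mul x x) = B (mul a x) x := assoc hV a x x
    rw [hxx, hax, hl] at h1
    simp only [map_add, map_smul, LinearMap.add_apply, LinearMap.smul_apply, smul_eq_mul, hl, hnx] at h1
    linarith
  have hyx : B y x = m := by rw [symm hV]; exact hm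
  have hββ : B β β = 4 * l * (1 - l) - 1 / 16 * (1 - m) := by
    have h1 : B β x = 4 * B s x - 4 * (l - 1 / 32) * B a x + 1 / 16 * (B x x + B y x) := by
      rw [hβd]
      simp only [map_add, map_sub, map_smul, LinearMap.add_apply, LinearMap.sub_apply, LinearMap.smul_apply, smul_eq_mul]
    rw [hβS, ← hβx, h1, hsx, hl, hnx, hyx]
    ring
  -- products with x + y
  have hba : mul β a = (1 / 4 : ℝ) • β := by rw [comm hV]; exact hβ
  have hαa : mul α a = 0 := by rw [comm hV]; exact hα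
  have hβα' : mul β α = mul α β := comm hV _ _
  have k1 : mul α ((1 / 2 : ℝ) • (x + y)) = mul α α + mul α β := by
    have h1 : (1 / 2 : ℝ) • (x + y) = α + β + l • a := by rw [hsum]; module
    rw [h1]
    simp only [map_add, map_smul, hαa]
    (module)
  have k2 : mul β ((1 / 2 : ℝ) • (x + y)) = mul α β + mul β β + (l / 4) • β := by
    have h1 : (1 / 2 : ℝ) • (x + y) = α + β + l • a := by rw [hsum]; module
    rw [h1]
    simp only [map_add, map_smul, hba, hβα']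
    (module)
  have k3 : mul a (mul α ((1 / 2 : ℝ) • (x + y))) = (1 / 4 : ℝ) • mul α β := by
    rw [k1, map_add, f00, f0a, zero_add]
  have k4 : mul a (mul β ((1 / 2 : ℝ) • (x + y))) = mul a (mul α ((1 / 2 : ℝ) • (x + y))) + c • a + (l / 16) • β := by
    rw [k3, k2, hz]
    simp only [map_add, map_smul, f0a, hz0, hid, hβ]
    (module)
  have k5 : mul α α = mul α ((1 / 2 : ℝ) • (x + y)) - (4 : ℝ) • mul a (mul α ((1 / 2 : ℝ) • (x + y))) := by
    rw [k3, k1]; module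
  -- expansions
  have hyx' : mul y x = T1 + (1 / 32 : ℝ) • (x + y) := by rw [comm hV]; exact hxy
  have hxa : mul x a = s + (1 / 32 : ℝ) • (a + x) := by rw [comm hV]; exact hax
  have hya : mul y a = s + (1 / 32 : ℝ) • (a + y) := by rw [comm hV]; exact hay
  have hsx' : mul s x = (3 / 4 * l - 25 / 1024) • x + (7 / 32 : ℝ) • s + (7 / 2048 : ℝ) • (x2 + a) := by
    rw [comm hV]; exact hxs
  have hsy' : mul s y = (3 / 4 * l - 25 / 1024) • y + (7 / 32 : ℝ) • s + (7 / 2048 : ℝ) • (a + y2) := by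
    rw [comm hV]; exact hys
  have hsa' : mul s a = (3 / 4 * l - 25 / 1024) • a + (7 / 32 : ℝ) • s + (7 / 2048 : ℝ) • (x + y) := by
    rw [comm hV]; exact has
  have eα : mul α ((1 / 2 : ℝ) • (x + y)) = (7 / 16 : ℝ) • T1 + (3 * l - 1) • s + (143 / 512 - 93 / 64 * l) • (x + y) +
      (1 / 32 * (3 * l - 1 / 8) - 7 / 512) • a - (7 / 1024 : ℝ) • (x2 + y2) := by
    rw [hαd]
    simp only [map_add, map_sub, map_smul, LinearMap.add_apply, LinearMap.sub_apply, LinearMap.smul_apply,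
      hxx, hyy, hxy, hyx', hax, hay, hsx', hsy']
    (module)
  have eβ : mul β ((1 / 2 : ℝ) • (x + y)) = (1 / 16 : ℝ) • T1 + (1 - 4 * l) • s +
      (2 * (3 / 4 * l - 25 / 1024) - 1 / 16 * (l - 1 / 32) + 17 / 512) • (x + y) +
      (7 / 512 - 1 / 8 * (l - 1 / 32)) • a + (7 / 1024 : ℝ) • (x2 + y2) := by
    rw [hβd]
    simp only [map_add, map_sub, map_smul, LinearMap.add_apply, LinearMap.sub_apply, LinearMap.smul_apply,
      hxx, hyy, hxy, hyx', hax, hay, hsx', hsy']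
    (module)
  have hX : mul a T1 = (32 / 3 * l - 19 / 48) • s + (7 / 96 : ℝ) • T0 + (1 / 6 * l - 19 / 3072) • (x + y) +
      (7 / 6144 : ℝ) • (x2 + y2) + (-127 / 3072 - 1 / 24 * m + 5 / 3 * l - 32 / 3 * l ^ 2) • a := by
    rw [eα, eβ, hc, hββ, hβd] at k4
    simp only [map_add, map_sub, map_smul, hid, hax, hay, hax2, hay2, has] at k4
    linear_combination (norm := module) (-(8 / 3 : ℝ)) • k4
  refine ⟨hX, ?_⟩
  rw [eα] at k5
  simp only [map_add, map_sub, map_smul, hid, hax, hay, hax2, hay2, has, hX] at k5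
  rw [hαd] at k5
  simp only [map_add, map_sub, map_smul, LinearMap.add_apply, LinearMap.sub_apply, LinearMap.smul_apply,
      hid, hxx, hyy, hxy, hyx', hax, hay, hxa, hya, hsx', hsy', hsa', has, hxs, hys] at k5
  linear_combination (norm := module) (1 / 16 : ℝ) • k5

/-! ### dihedral strings of axes -/

/-- a dihedral string of axes -/
structure Dih (mul : V →ₗ[ℝ] V →ₗ[ℝ] V) (B : LinearMap.BilinForm ℝ V) (a : ℤ → V) (τ : ℤ → V ≃ₗ[ℝ] V) : Prop where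
  amb : IsMajoranaAmbient mul B
  mp : ∀ i, MP mul B (τ i) (a i)
  norm : ∀ i, B (a i) (a i) = 1
  refl : ∀ i j, τ i (a j) = a (2 * i - j)

theorem const_of_succ {X : Type*} (f : ℤ → X) (h : ∀ i, f (i + 1) = f i) (i : ℤ) : f i = f 0 := by
  induction i using Int.induction_on with
  | zero => rfl
  | succ i ih => rw [h, ih]
  | pred i ih =>
    rw [← ih, ← h (-(i : ℤ) - 1)]
    congr 1
    ring

/-- the constants `a_i a_{i+n} - (a_i + a_{i+n})/32` -/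
noncomputable def tn (mul : V →ₗ[ℝ] V →ₗ[ℝ] V) (a : ℤ → V) (n i : ℤ) : V :=
  mul (a i) (a (i + n)) - (1 / 32 : ℝ) • (a i + a (i + n))

section Dih

variable {a : ℤ → V} {τ : ℤ → V ≃ₗ[ℝ] V}

theorem Dih.Brefl (D : Dih mul B a τ) (k i j : ℤ) : B (a (2 * k - i)) (a (2 * k - j)) = B (a i) (a j) := by
  have h1 := (D.mp k).hB (a i) (a j)
  rwa [D.refl, D.refl] at h1

theorem Dih.B1 (D : Dih mul B a τ) (i : ℤ) : B (a i) (a (i + 1)) = B (a 0) (a 1) := by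
  have h := const_of_succ (fun i => B (a i) (a (i + 1))) (fun i => by
    have h1 := D.Brefl (i + 1) i (i + 1)
    rw [H93.Majorana.symm D.amb] at h1
    have e1 : 2 * (i + 1) - i = i + 1 + 1 := by ring
    have e2 : 2 * (i + 1) - (i + 1) = i + 1 := by ring
    rwa [e1, e2] at h1) i
  simpa using h

theorem Dih.B3 (D : Dih mul B a τ) (i : ℤ) : B (a i) (a (i + 3)) = B (a 0) (a 3) := by
  have h := const_of_succ (fun i => B (a i) (a (i + 3))) (fun i => by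
    have h1 := D.Brefl (i + 2) i (i + 3)
    rw [H93.Majorana.symm D.amb] at h1
    have e1 : 2 * (i + 2) - i = i + 1 + 3 := by ring
    have e2 : 2 * (i + 2) - (i + 3) = i + 1 := by ring
    rwa [e1, e2] at h1) i
  simpa using h

theorem Dih.B2 (D : Dih mul B a τ) (i : ℤ) : B (a (i + 2)) (a (i + 4)) = B (a i) (a (i + 2)) := by
  have h1 := D.Brefl (i + 2) i (i + 2)
  rw [H93.Majorana.symm D.amb] at h1
  have e1 : 2 * (i + 2) - i = i + 4 := by ring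
  have e2 : 2 * (i + 2) - (i + 2) = i + 2 := by ring
  rwa [e1, e2] at h1

/-- the product relation transported by a reflection -/
theorem Dih.mul_refl (D : Dih mul B a τ) (k j : ℤ) :
    mul (a k) (a (2 * k - j)) - (1 / 32 : ℝ) • a (2 * k - j) = mul (a k) (a j) - (1 / 32 : ℝ) • a j := by
  have h1 := fix_prod (D.mp k) (a j)
  rw [map_sub, (D.mp k).hmul, map_smul, D.refl, D.refl] at h1
  have e1 : 2 * k - k = k := by ring
  rwa [e1] at h1

theorem Dih.t1_const (D : Dih mul B a τ) (i : ℤ) : tn mul a 1 i = tn mul a 1 0 := by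
  apply const_of_succ (fun i => tn mul a 1 i)
  intro i
  have h1 := D.mul_refl (i + 1) i
  have e1 : 2 * (i + 1) - i = i + 1 + 1 := by ring
  rw [e1, comm D.amb (a (i + 1)) (a i)] at h1
  unfold tn
  linear_combination (norm := module) h1

theorem Dih.t2_succ (D : Dih mul B a τ) (i : ℤ) : tn mul a 2 (i + 2) = tn mul a 2 i := by
  have h1 := D.mul_refl (i + 2) i
  have e1 : 2 * (i + 2) - i = i + 2 + 2 := by ring
  rw [e1, comm D.amb (a (i + 2)) (a i)] at h1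
  unfold tn
  linear_combination (norm := module) h1

theorem Dih.mul1 (D : Dih mul B a τ) (i : ℤ) :
    mul (a i) (a (i + 1)) = tn mul a 1 0 + (1 / 32 : ℝ) • (a i + a (i + 1)) := by
  rw [← D.t1_const i]; unfold tn; module

theorem Dih.mul1' (D : Dih mul B a τ) (i : ℤ) :
    mul (a i) (a (i - 1)) = tn mul a 1 0 + (1 / 32 : ℝ) • (a i + a (i - 1)) := by
  have h := D.mul1 (i - 1)
  rw [sub_add_cancel, comm D.amb] at h
  rw [h]; module

theorem Dih.mul2 (D : Dih mul B a τ) (i : ℤ) :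
    mul (a i) (a (i + 2)) = tn mul a 2 i + (1 / 32 : ℝ) • (a i + a (i + 2)) := by
  unfold tn; module

theorem Dih.mul2' (D : Dih mul B a τ) (i : ℤ) :
    mul (a i) (a (i - 2)) = tn mul a 2 i + (1 / 32 : ℝ) • (a i + a (i - 2)) := by
  have h := D.mul2 (i - 2)
  have h2 := D.t2_succ (i - 2)
  rw [sub_add_cancel] at h h2
  rw [comm D.amb, ← h2] at h
  rw [h]; module

theorem Dih.as (D : Dih mul B a τ) (i : ℤ) :
    mul (a i) (tn mul a 1 0) = (3 / 4 * B (a 0) (a 1) - 25 / 1024) • a i + (7 / 32 : ℝ) • tn mul a 1 0 +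
      (7 / 2048 : ℝ) • (a (i + 1) + a (i - 1)) := by
  have hy : τ i (a (i + 1)) = a (i - 1) := by
    rw [D.refl]; congr 1; ring
  exact (parts D.amb (D.mp i) (D.norm i) (D.B1 i) hy (D.mul1 i)).2.2

/-- the two values of the distance-two inner product agree -/
theorem Dih.m_eq (D : Dih mul B a τ) : B (a 1) (a (-1)) = B (a 0) (a 2) := by
  have h0 := D.as 0
  have h1 := D.as 1
  have hs0 : B (a 0) (tn mul a 1 0) = B (a 1) (tn mul a 1 0) := by
    unfold tn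
    have h3 : B (a 0) (mul (a 0) (a (0 + 1))) = B (mul (a 0) (a 0)) (a (0 + 1)) := assoc D.amb _ _ _
    have h4 : B (a 1) (mul (a (0 + 1)) (a 0)) = B (mul (a 1) (a (0 + 1))) (a 0) := assoc D.amb _ _ _
    rw [comm D.amb (a (0 + 1)) (a 0)] at h4
    rw [(D.mp 0).ax.idem] at h3
    have e : (0 : ℤ) + 1 = 1 := by ring
    rw [e] at h3 h4 ⊢
    rw [(D.mp 1).ax.idem] at h4
    simp only [map_sub, map_smul, map_add, smul_eq_mul]
    rw [h3, h4, D.norm 0, D.norm 1, H93.Majorana.symm D.amb (a 1) (a 0)]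
    ring
  have hsw : B (a 1) (mul (a 0) (tn mul a 1 0)) = B (a 0) (mul (a 1) (tn mul a 1 0)) := by
    rw [assoc D.amb, assoc D.amb, comm D.amb (a 1) (a 0)]
  rw [h0, h1] at hsw
  simp only [map_add, map_smul, smul_eq_mul, zero_add, zero_sub, sub_self] at hsw
  have e2 : (1 : ℤ) + 1 = 2 := by ring
  rw [e2, H93.Majorana.symm D.amb (a 1) (a 0), D.norm 0, D.norm 1, hs0] at hsw
  linarith

theorem Dih.B2all (D : Dih mul B a τ) (i : ℤ) : B (a i) (a (i + 2)) = B (a 0) (a 2) := by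
  apply const_of_succ (fun i => B (a i) (a (i + 2)))
  intro i
  -- the function is 2-periodic and its values at -1 and 0 agree
  have hper : ∀ k : ℤ, B (a (2 * k)) (a (2 * k + 2)) = B (a 0) (a 2) := by
    intro k
    have := const_of_succ (fun k : ℤ => B (a (2 * k)) (a (2 * k + 2))) (fun k => by
      have h1 := D.B2 (2 * k)
      have e1 : 2 * (k + 1) = 2 * k + 2 := by ring
      have e2 : 2 * k + 2 + 2 = 2 * k + 4 := by ring
      show B (a (2 * (k + 1))) (a (2 * (k + 1) + 2)) = _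
      rw [e1, e2, h1]) k
    simpa using this
  have hper' : ∀ k : ℤ, B (a (2 * k - 1)) (a (2 * k - 1 + 2)) = B (a 0) (a 2) := by
    intro k
    have := const_of_succ (fun k : ℤ => B (a (2 * k - 1)) (a (2 * k - 1 + 2))) (fun k => by
      have h1 := D.B2 (2 * k - 1)
      have e1 : 2 * (k + 1) - 1 = 2 * k - 1 + 2 := by ring
      have e2 : 2 * k - 1 + 2 + 2 = 2 * k - 1 + 4 := by ring
      show B (a (2 * (k + 1) - 1)) (a (2 * (k + 1) - 1 + 2)) = _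
      rw [e1, e2, h1]) k
    rw [this]
    have e1 : (2 * 0 - 1 : ℤ) = -1 := by ring
    have e2 : (-1 + 2 : ℤ) = 1 := by ring
    show B (a (2 * 0 - 1)) (a (2 * 0 - 1 + 2)) = _
    rw [e1, e2, H93.Majorana.symm D.amb, D.m_eq]
  show B (a (i + 1)) (a (i + 1 + 2)) = B (a i) (a (i + 2))
  rcases Int.even_or_odd' i with ⟨k, rfl | rfl⟩
  · rw [hper k]
    have := hper' (k + 1)
    have e1 : 2 * (k + 1) - 1 = 2 * k + 1 := by ring
    rwa [e1] at this
  · have h1 := hper' (k + 1)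
    have e1 : 2 * (k + 1) - 1 = 2 * k + 1 := by ring
    rw [e1] at h1
    rw [h1]
    have h2 := hper (k + 1)
    have e2 : 2 * (k + 1) = 2 * k + 1 + 1 := by ring
    rwa [e2] at h2

theorem Dih.aT (D : Dih mul B a τ) (i : ℤ) :
    mul (a i) (tn mul a 2 i) = (3 / 4 * B (a 0) (a 2) - 25 / 1024) • a i + (7 / 32 : ℝ) • tn mul a 2 i +
      (7 / 2048 : ℝ) • (a (i + 2) + a (i - 2)) := by
  have hy : τ i (a (i + 2)) = a (i - 2) := by
    rw [D.refl]; congr 1; ring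
  exact (parts D.amb (D.mp i) (D.norm i) (D.B2all i) hy (D.mul2 i)).2.2

theorem Dih.main (D : Dih mul B a τ) {l m : ℝ} (hl : B (a 0) (a 1) = l) (hm : B (a 0) (a 2) = m) (i : ℤ) :
    mul (a i) (tn mul a 2 (i - 1)) = (32 / 3 * l - 19 / 48) • tn mul a 1 0 + (7 / 96 : ℝ) • tn mul a 2 i +
      (1 / 6 * l - 19 / 3072) • (a (i + 1) + a (i - 1)) + (7 / 6144 : ℝ) • (a (i + 2) + a (i - 2)) +
      (-127 / 3072 - 1 / 24 * m + 5 / 3 * l - 32 / 3 * l ^ 2) • a i ∧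
    mul (tn mul a 1 0) (tn mul a 1 0) = (-13 / 1536 - 5 / 12 * l) • tn mul a 1 0 - (7 / 1536 : ℝ) • tn mul a 2 i +
      (7 / 2048 : ℝ) • tn mul a 2 (i - 1) +
      (49 / 768 * l - 245 / 196608) • (a (i + 1) + a (i - 1)) + (49 / 196608 : ℝ) • (a (i + 2) + a (i - 2)) +
      (-7 / 98304 + 7 / 1536 * m - 7 / 384 * l + 7 / 6 * l ^ 2) • a i := by
  subst hl hm
  have hy : τ i (a (i + 1)) = a (i - 1) := by
    rw [D.refl]; congr 1; ring
  have hly : B (a i) (a (i - 1)) = B (a 0) (a 1) := by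
    have := D.B1 (i - 1)
    rw [sub_add_cancel] at this
    rw [H93.Majorana.symm D.amb, this]
  have hmm : B (a (i + 1)) (a (i - 1)) = B (a 0) (a 2) := by
    have := D.B2all (i - 1)
    have e : i - 1 + 2 = i + 1 := by ring
    rw [e] at this
    rw [H93.Majorana.symm D.amb, this]
  have hxy : mul (a (i + 1)) (a (i - 1)) = tn mul a 2 (i - 1) + (1 / 32 : ℝ) • (a (i + 1) + a (i - 1)) := by
    have := D.mul2 (i - 1)
    have e : i - 1 + 2 = i + 1 := by ring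
    rw [e] at this
    rw [comm D.amb, this]; module
  have hxs := D.as (i + 1)
  have hys := D.as (i - 1)
  have e1 : i + 1 + 1 = i + 2 := by ring
  have e2 : i + 1 - 1 = i := by ring
  have e3 : i - 1 + 1 = i := by ring
  have e4 : i - 1 - 1 = i - 2 := by ring
  rw [e1, e2] at hxs
  rw [e3, e4] at hys
  exact main_formulas D.amb (D.mp i) (D.norm i) (D.norm _) (D.B1 i) hly hmm hy (D.mp _).ax.idem (D.mp _).ax.idem
    (D.mul1 i) (D.mul1' i) (D.mul2 i) (D.mul2' i) hxy hxs hys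

/-! ### linear relations -/

/-- the first linear relation -/
theorem Dih.E (D : Dih mul B a τ) {l m : ℝ} (hl : B (a 0) (a 1) = l) (hm : B (a 0) (a 2) = m) (i : ℤ) :
    (a (i + 2) + a (i - 2)) + (256 * l - 5) • (a (i + 1) + a (i - 1)) +
      ((32768 * l ^ 2 - 512 * l + 128 * m - 2) / 7) • a i -
    ((a (i + 3) + a (i - 1)) + (256 * l - 5) • (a (i + 2) + a i) +
      ((32768 * l ^ 2 - 512 * l + 128 * m - 2) / 7) • a (i + 1)) =
    (32 : ℝ) • (tn mul a 2 i - tn mul a 2 (i + 1)) := by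
  have h0 := (D.main hl hm i).2
  have h1 := (D.main hl hm (i + 1)).2
  have e1 : i + 1 + 1 = i + 2 := by ring
  have e2 : i + 1 - 1 = i := by ring
  have e3 : i + 1 + 2 = i + 3 := by ring
  have e4 : i + 1 - 2 = i - 1 := by ring
  rw [e1, e2, e3, e4] at h1
  have ht : tn mul a 2 (i - 1) = tn mul a 2 (i + 1) := by
    have := D.t2_succ (i - 1)
    have e : i - 1 + 2 = i + 1 := by ring
    rw [e] at this
    exact this.symm
  rw [ht] at h0
  rw [h0] at h1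
  linear_combination (norm := module) (196608 / 49 : ℝ) • h1

/-- the homogeneous relation -/
theorem Dih.Bq (D : Dih mul B a τ) {l m : ℝ} (hl : B (a 0) (a 1) = l) (hm : B (a 0) (a 2) = m) (i : ℤ) :
    (a (i + 4) - a (i - 2)) + (256 * l - 5) • (a (i + 3) - a (i - 1)) +
      ((32768 * l ^ 2 - 512 * l + 128 * m - 2) / 7 - 1) • (a (i + 2) - a i) = 0 := by
  have h0 := D.E hl hm i
  have h1 := D.E hl hm (i + 1)
  have e1 : i + 1 + 1 = i + 2 := by ring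
  have e2 : i + 1 - 1 = i := by ring
  have e3 : i + 1 + 2 = i + 3 := by ring
  have e4 : i + 1 - 2 = i - 1 := by ring
  have e5 : i + 1 + 3 = i + 4 := by ring
  rw [e1, e2, e3, e4, e5] at h1
  rw [D.t2_succ i] at h1
  linear_combination (norm := module) -(h0 + h1)

/-- the product of axes at distance three, first expression -/
theorem Dih.a03 (D : Dih mul B a τ) {l m : ℝ} (hl : B (a 0) (a 1) = l) (hm : B (a 0) (a 2) = m) (i : ℤ) :
    mul (a i) (a (i + 3)) = ((-37 / 96) + (40 / 3) * l : ℝ) • a (i - 1) + ((-1 / 24) : ℝ) • a (i - 2) +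
      ((1363 / 336) + (-160 / 21) * m + (-5576 / 21) * l + (88064 / 21) * l ^ 2 : ℝ) • a i +
      ((-29 / 84) + (-4 / 7) * m + (328 / 21) * l + (-1024 / 7) * l ^ 2 : ℝ) • a (i + 1) +
      ((11 / 96) + (-8) * l : ℝ) • a (i + 2) +
      ((-491 / 21) + (-128 / 7) * m + (19456 / 21) * l + (-32768 / 7) * l ^ 2 : ℝ) • tn mul a 1 0 +
      ((7 / 3) + (-256) * l : ℝ) • tn mul a 2 i := by
  have h := D.E hl hm i
  have h1 := congrArg (fun v => mul (a i) v) h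
  simp only [map_add, map_sub, map_smul] at h1
  have ht : tn mul a 2 (i + 1) = tn mul a 2 (i - 1) := by
    have := D.t2_succ (i - 1)
    have e : i - 1 + 2 = i + 1 := by ring
    rw [e] at this
    exact this
  rw [ht, (D.main hl hm i).1, D.aT i, hm, D.mul1 i, D.mul1' i, D.mul2 i, D.mul2' i, (D.mp i).ax.idem] at h1
  linear_combination (norm := module) -h1

/-- the product of axes at distance three, second expression -/
theorem Dih.a30 (D : Dih mul B a τ) {l m : ℝ} (hl : B (a 0) (a 1) = l) (hm : B (a 0) (a 2) = m) (i : ℤ) :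
    mul (a (i + 3)) (a i) = ((11 / 96) + (-8) * l : ℝ) • a (i + 1) +
      ((-29 / 84) + (-4 / 7) * m + (328 / 21) * l + (-1024 / 7) * l ^ 2 : ℝ) • a (i + 2) +
      ((1363 / 336) + (-160 / 21) * m + (-5576 / 21) * l + (88064 / 21) * l ^ 2 : ℝ) • a (i + 3) +
      ((-37 / 96) + (40 / 3) * l : ℝ) • a (i + 4) + ((-1 / 24) : ℝ) • a (i + 5) +
      ((-491 / 21) + (-128 / 7) * m + (19456 / 21) * l + (-32768 / 7) * l ^ 2 : ℝ) • tn mul a 1 0 +
      ((7 / 3) + (-256) * l : ℝ) • tn mul a 2 (i + 1) := by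
  have h := D.E hl hm (i + 2)
  have h1 := congrArg (fun v => mul (a (i + 3)) v) h
  simp only [map_add, map_sub, map_smul] at h1
  have e1 : i + 2 + 2 = i + 4 := by ring
  have e2 : i + 2 - 2 = i := by ring
  have e3 : i + 2 + 1 = i + 3 := by ring
  have e4 : i + 2 - 1 = i + 1 := by ring
  have e5 : i + 2 + 3 = i + 5 := by ring
  rw [e1, e2, e3, e4, e5] at h1
  have p1 := D.mul1 (i + 3)
  have p2 := D.mul1' (i + 3)
  have p3 := D.mul2 (i + 3)
  have p4 := D.mul2' (i + 3)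
  have p5 := D.aT (i + 3)
  have p6 := (D.main hl hm (i + 3)).1
  have q1 : i + 3 + 1 = i + 4 := by ring
  have q2 : i + 3 - 1 = i + 2 := by ring
  have q3 : i + 3 + 2 = i + 5 := by ring
  have q4 : i + 3 - 2 = i + 1 := by ring
  rw [q1] at p1
  rw [q2] at p2
  rw [q3] at p3
  rw [q4] at p4
  rw [q3, q4, hm] at p5
  rw [q1, q2, q3, q4] at p6
  have ht1 : tn mul a 2 (i + 3) = tn mul a 2 (i + 1) := by
    have := D.t2_succ (i + 1)
    have e : i + 1 + 2 = i + 3 := by ring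
    rw [e] at this
    exact this
  rw [p6, p5, p1, p2, p3, p4, (D.mp (i + 3)).ax.idem, ht1] at h1
  linear_combination (norm := module) h1

/-- the second linear relation -/
theorem Dih.R3 (D : Dih mul B a τ) {l m : ℝ} (hl : B (a 0) (a 1) = l) (hm : B (a 0) (a 2) = m) :
    ((-15 / 4) + (352) * l + (-8192) * l ^ 2 : ℝ) • a (-1) + ((5 / 8) + (-32) * l : ℝ) • a (-2) +
      ((24 / 7) + (32 / 7) * m + (-2304 / 7) * l + (-4096 / 7) * l * m + (81920 / 7) * l ^ 2 + (-1048576 / 7) * l ^ 3 : ℝ) • a 0 +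
      ((-6 / 7) + (-8 / 7) * m + (576 / 7) * l + (1024 / 7) * l * m + (-20480 / 7) * l ^ 2 + (262144 / 7) * l ^ 3 : ℝ) • a 1 +
      ((93 / 56) + (-72 / 7) * m + (-544 / 7) * l + (3072 / 7) * l * m + (-16384 / 7) * l ^ 2 + (786432 / 7) * l ^ 3 : ℝ) • a 2 +
      ((-31 / 28) + (48 / 7) * m + (32 / 7) * l + (12288 / 7) * l ^ 2 : ℝ) • a 3 = 0 := by
  have h1 := D.a03 hl hm 0
  have h2 := D.a30 hl hm 0
  have h3 := D.E hl hm 0
  have h4 := D.Bq hl hm 0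
  have h5 := D.Bq hl hm 1
  simp only [zero_add, zero_sub] at h1 h2 h3 h4
  have e1 : (1 : ℤ) + 4 = 5 := by ring
  have e2 : (1 : ℤ) - 2 = -1 := by ring
  have e3 : (1 : ℤ) + 3 = 4 := by ring
  have e4 : (1 : ℤ) - 1 = 0 := by ring
  have e5 : (1 : ℤ) + 2 = 3 := by ring
  rw [e1, e2, e3, e4, e5] at h5
  rw [comm D.amb, h1] at h2
  linear_combination (norm := module) h2 + (((7 / 3) + (-256) * l) / 32 : ℝ) • h3 - (1 / 24 : ℝ) • h5 - (19 / 32 - 24 * l : ℝ) • h4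

/-! ### polynomial relations -/

theorem Dih.Bs (D : Dih mul B a τ) {l : ℝ} (hl : B (a 0) (a 1) = l) (i : ℤ) :
    B (a i) (tn mul a 1 0) = (31 * l - 1) / 32 := by
  rw [← D.t1_const i]
  unfold tn
  have h3 : B (a i) (mul (a i) (a (i + 1))) = B (mul (a i) (a i)) (a (i + 1)) := assoc D.amb _ _ _
  rw [(D.mp i).ax.idem] at h3
  simp only [map_sub, map_smul, map_add, smul_eq_mul]
  rw [h3, D.norm, D.B1, hl]
  ring

theorem Dih.Bt (D : Dih mul B a τ) {m : ℝ} (hm : B (a 0) (a 2) = m) (i : ℤ) :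
    B (a i) (tn mul a 2 i) = (31 * m - 1) / 32 := by
  unfold tn
  have h3 : B (a i) (mul (a i) (a (i + 2))) = B (mul (a i) (a i)) (a (i + 2)) := assoc D.amb _ _ _
  rw [(D.mp i).ax.idem] at h3
  simp only [map_sub, map_smul, map_add, smul_eq_mul]
  rw [h3, D.norm, D.B2all, hm]
  ring

theorem Dih.Bt' (D : Dih mul B a τ) {l m : ℝ} (hl : B (a 0) (a 1) = l) (hm : B (a 0) (a 2) = m) (i : ℤ) :
    B (a (i + 1)) (tn mul a 2 i) = (30 * l + m - 1) / 32 := by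
  unfold tn
  have h3 : B (a (i + 1)) (mul (a i) (a (i + 2))) = B (mul (a (i + 1)) (a i)) (a (i + 2)) := assoc D.amb _ _ _
  have h4 := D.mul1' (i + 1)
  have e : i + 1 - 1 = i := by ring
  rw [e] at h4
  rw [h4] at h3
  simp only [map_sub, map_smul, map_add, smul_eq_mul, LinearMap.add_apply, LinearMap.smul_apply] at h3 ⊢
  have h5 := D.Bs hl (i + 2)
  have h6 := D.B1 (i + 1)
  have e2 : i + 1 + 1 = i + 2 := by ring
  rw [e2, hl] at h6
  rw [H93.Majorana.symm D.amb] at h5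
  have h7 := D.B1 i
  rw [hl, H93.Majorana.symm D.amb] at h7
  have h8 := D.B2all i
  rw [hm] at h8
  rw [h3, h5, h6, h7, h8]
  ring

theorem Dih.tper (D : Dih mul B a τ) (i : ℤ) : tn mul a 2 (i + 2) = tn mul a 2 i := D.t2_succ i

theorem Dih.l3 (D : Dih mul B a τ) {l m : ℝ} (hl : B (a 0) (a 1) = l) (hm : B (a 0) (a 2) = m) :
    B (a 0) (a 3) = (33 / 7) - (33 / 7) * m - (2169 / 7) * l - (1920 / 7) * l * m + (36864 / 7) * l ^ 2 -
      (32768 / 7) * l ^ 3 := by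
  have h := congrArg (fun v => B (a 0) v) (D.E hl hm 0)
  simp only [map_add, map_sub, map_smul, smul_eq_mul, zero_add, zero_sub] at h
  have t0 := D.Bt hm 0
  have t1 := D.Bt' hl hm (-1)
  have ht := D.t2_succ (-1)
  have e1 : (-1 : ℤ) + 2 = 1 := by ring
  have e2 : (-1 : ℤ) + 1 = 0 := by ring
  rw [e1] at ht
  rw [e2, ← ht] at t1
  have b1 := D.B1 (-1)
  rw [e2, hl, H93.Majorana.symm D.amb] at b1
  have b2 := D.B2all (-2)
  have e3 : (-2 : ℤ) + 2 = 0 := by ring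
  rw [e3, hm, H93.Majorana.symm D.amb] at b2
  rw [t0, t1, b1, b2, hl, hm, D.norm 0] at h
  linarith

theorem Dih.polyA (D : Dih mul B a τ) {l m : ℝ} (hl : B (a 0) (a 1) = l) (hm : B (a 0) (a 2) = m) :
    117 - 501 * m + 384 * m ^ 2 - 14400 * l + 26688 * l * m + 552960 * l ^ 2 + 122880 * l ^ 2 * m -
      6979584 * l ^ 3 + 6291456 * l ^ 4 = 0 := by
  have h := congrArg (fun v => B (a 1) v) (D.R3 hl hm)
  simp only [map_add, map_smul, smul_eq_mul, map_zero] at h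
  have b1 : B (a 1) (a (-1)) = m := by rw [D.m_eq, hm]
  have b2 : B (a 1) (a (-2)) = B (a 0) (a 3) := by
    have := D.B3 (-2)
    have e : (-2 : ℤ) + 3 = 1 := by ring
    rw [e] at this
    rw [H93.Majorana.symm D.amb, this]
  have b3 : B (a 1) (a 0) = l := by rw [H93.Majorana.symm D.amb, hl]
  have b4 : B (a 1) (a 2) = l := by
    have := D.B1 1
    have e : (1 : ℤ) + 1 = 2 := by ring
    rwa [e, hl] at this
  have b5 : B (a 1) (a 3) = m := by
    have := D.B2all 1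
    have e : (1 : ℤ) + 2 = 3 := by ring
    rwa [e, hm] at this
  rw [b1, b2, b3, b4, b5, D.norm 1, D.l3 hl hm] at h
  linarith

theorem Dih.polyT (D : Dih mul B a τ) {l m : ℝ} (hl : B (a 0) (a 1) = l) (hm : B (a 0) (a 2) = m) :
    (m - l) * (5 - 5 * m - 384 * l - 128 * l * m + 8192 * l ^ 2 - 32768 * l ^ 3) = 0 := by
  have h := congrArg (fun v => B v (tn mul a 2 0)) (D.R3 hl hm)
  simp only [map_add, map_smul, smul_eq_mul, map_zero, LinearMap.add_apply, LinearMap.smul_apply,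
    LinearMap.zero_apply] at h
  have p0 := D.Bt hm 0
  have p2 := D.Bt hm 2
  have p2' := D.Bt hm (-2)
  have t2 := D.t2_succ 0
  have t2' := D.t2_succ (-2)
  have e1 : (0 : ℤ) + 2 = 2 := by ring
  have e2 : (-2 : ℤ) + 2 = 0 := by ring
  rw [e1] at t2
  rw [e2] at t2'
  rw [t2] at p2
  rw [← t2'] at p2'
  have q1 := D.Bt' hl hm 0
  have q3 := D.Bt' hl hm 2
  have q1' := D.Bt' hl hm (-2)
  have e3 : (0 : ℤ) + 1 = 1 := by ring
  have e4 : (2 : ℤ) + 1 = 3 := by ring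
  have e5 : (-2 : ℤ) + 1 = -1 := by ring
  rw [e3] at q1
  rw [e4, t2] at q3
  rw [e5, ← t2'] at q1'
  rw [p0, p2, p2', q1, q3, q1'] at h
  linarith

/-! ### solving -/

theorem Dih.l4 (D : Dih mul B a τ) {l m : ℝ} (hl : B (a 0) (a 1) = l) (hm : B (a 0) (a 2) = m) :
    B (a 0) (a 4) = m - (256 * l - 5) * (B (a 0) (a 3) - l) -
      ((32768 * l ^ 2 - 512 * l + 128 * m - 2) / 7 - 1) * (m - 1) := by
  have h := congrArg (fun v => B (a 0) v) (D.Bq hl hm 0)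
  simp only [map_add, map_sub, map_smul, smul_eq_mul, zero_add, zero_sub, map_zero] at h
  have b1 := D.B1 (-1)
  have e2 : (-1 : ℤ) + 1 = 0 := by ring
  rw [e2, hl, H93.Majorana.symm D.amb] at b1
  have b2 := D.B2all (-2)
  have e3 : (-2 : ℤ) + 2 = 0 := by ring
  rw [e3, hm, H93.Majorana.symm D.amb] at b2
  rw [b1, b2, hm, D.norm 0] at h
  linarith

theorem Dih.l5 (D : Dih mul B a τ) {l m : ℝ} (hl : B (a 0) (a 1) = l) (hm : B (a 0) (a 2) = m) :
    B (a 0) (a 5) = l - (256 * l - 5) * (B (a 0) (a 4) - 1) -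
      ((32768 * l ^ 2 - 512 * l + 128 * m - 2) / 7 - 1) * (B (a 0) (a 3) - l) := by
  have h := congrArg (fun v => B (a 0) v) (D.Bq hl hm 1)
  have e1 : (1 : ℤ) + 4 = 5 := by ring
  have e2 : (1 : ℤ) - 2 = -1 := by ring
  have e3 : (1 : ℤ) + 3 = 4 := by ring
  have e4 : (1 : ℤ) - 1 = 0 := by ring
  have e5 : (1 : ℤ) + 2 = 3 := by ring
  simp only [map_add, map_sub, map_smul, smul_eq_mul, map_zero, e1, e2, e3, e4, e5] at h
  have b1 := D.B1 (-1)
  have e6 : (-1 : ℤ) + 1 = 0 := by ring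
  rw [e6, hl, H93.Majorana.symm D.amb] at b1
  rw [b1, hl, D.norm 0] at h
  linarith

theorem Dih.l6 (D : Dih mul B a τ) {l m : ℝ} (hl : B (a 0) (a 1) = l) (hm : B (a 0) (a 2) = m) :
    B (a 0) (a 6) = 1 - (256 * l - 5) * (B (a 0) (a 5) - l) -
      ((32768 * l ^ 2 - 512 * l + 128 * m - 2) / 7 - 1) * (B (a 0) (a 4) - m) := by
  have h := congrArg (fun v => B (a 0) v) (D.Bq hl hm 2)
  have e1 : (2 : ℤ) + 4 = 6 := by ring
  have e2 : (2 : ℤ) - 2 = 0 := by ring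
  have e3 : (2 : ℤ) + 3 = 5 := by ring
  have e4 : (2 : ℤ) - 1 = 1 := by ring
  have e5 : (2 : ℤ) + 2 = 4 := by ring
  simp only [map_add, map_sub, map_smul, smul_eq_mul, map_zero, e1, e2, e3, e4, e5] at h
  rw [hl, hm, D.norm 0] at h
  linarith

/-- the nine possibilities: some `a_n`, `1 ≤ n ≤ 6`, has inner product `1` with `a_0` -/
theorem Dih.exists_one (D : Dih mul B a τ) : ∃ n : ℕ, 1 ≤ n ∧ n ≤ 6 ∧ B (a 0) (a n) = 1 := by
  obtain ⟨l, hl⟩ : ∃ l, B (a 0) (a 1) = l := ⟨_, rfl⟩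
  obtain ⟨m, hm⟩ : ∃ m, B (a 0) (a 2) = m := ⟨_, rfl⟩
  have hA := D.polyA hl hm
  have hT := D.polyT hl hm
  have h3 := D.l3 hl hm
  have h4 := D.l4 hl hm
  have h5 := D.l5 hl hm
  have h6 := D.l6 hl hm
  rcases mul_eq_zero.mp hT with h | h
  · have hml : m = l := by linarith
    subst hml
    have hfac : (m - 1) * ((256 * m - 13) * ((64 * m - 1) * (128 * m - 3))) = 0 := by
      linear_combination (1 / 3 : ℝ) * hA
    rcases mul_eq_zero.mp hfac with h1 | h1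
    · exact ⟨1, le_rfl, by norm_num, by rw [Nat.cast_one, hl]; linarith⟩
    rcases mul_eq_zero.mp h1 with h1 | h1
    · have hm' : m = 13 / 256 := by linarith
      refine ⟨3, by norm_num, by norm_num, ?_⟩
      show B (a 0) (a 3) = 1
      rw [h3, hm']; norm_num
    rcases mul_eq_zero.mp h1 with h1 | h1
    · have hm' : m = 1 / 64 := by linarith
      refine ⟨3, by norm_num, by norm_num, ?_⟩
      show B (a 0) (a 3) = 1
      rw [h3, hm']; norm_num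
    · have hm' : m = 3 / 128 := by linarith
      refine ⟨5, by norm_num, by norm_num, ?_⟩
      show B (a 0) (a 5) = 1
      rw [h5, h4, h3, hm']; norm_num
  · -- m (5 + 128 l) = 5 - 384 l + 8192 l^2 - 32768 l^3
    have hne : 5 + 128 * l ≠ 0 := by
      intro h0
      have hl' : l = -5 / 128 := by linarith
      rw [hl'] at h
      linarith
    have hm1 : m * (5 + 128 * l) = 5 - 384 * l + 8192 * l ^ 2 - 32768 * l ^ 3 := by linarith
    have hfac : l * ((8 * l - 1) * ((32 * l - 1) * ((64 * l - 1) * (256 * l - 5)))) = 0 := by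
      have h2 : (5 + 128 * l) ^ 2 * (117 - 501 * m + 384 * m ^ 2 - 14400 * l + 26688 * l * m + 552960 * l ^ 2 +
          122880 * l ^ 2 * m - 6979584 * l ^ 3 + 6291456 * l ^ 4) =
          384 * (m * (5 + 128 * l)) ^ 2 + (-501 + 26688 * l + 122880 * l ^ 2) * (m * (5 + 128 * l)) * (5 + 128 * l) +
          (117 - 14400 * l + 552960 * l ^ 2 - 6979584 * l ^ 3 + 6291456 * l ^ 4) * (5 + 128 * l) ^ 2 := by ring
      rw [hA, hm1] at h2
      linear_combination (1 / 75264 : ℝ) * h2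
    have hmv : m = (5 - 384 * l + 8192 * l ^ 2 - 32768 * l ^ 3) / (5 + 128 * l) := by
      rw [eq_div_iff hne, hm1]
    rcases mul_eq_zero.mp hfac with h1 | h1
    · refine ⟨2, by norm_num, by norm_num, ?_⟩
      show B (a 0) (a 2) = 1
      rw [hm, hmv, h1]; norm_num
    rcases mul_eq_zero.mp h1 with h1 | h1
    · have hl' : l = 1 / 8 := by linarith
      refine ⟨2, by norm_num, by norm_num, ?_⟩
      show B (a 0) (a 2) = 1
      rw [hm, hmv, hl']; norm_num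
    rcases mul_eq_zero.mp h1 with h1 | h1
    · have hl' : l = 1 / 32 := by linarith
      refine ⟨4, by norm_num, by norm_num, ?_⟩
      show B (a 0) (a 4) = 1
      rw [h4, h3, hmv, hl']; norm_num
    rcases mul_eq_zero.mp h1 with h1 | h1
    · have hl' : l = 1 / 64 := by linarith
      refine ⟨4, by norm_num, by norm_num, ?_⟩
      show B (a 0) (a 4) = 1
      rw [h4, h3, hmv, hl']; norm_num
    · have hl' : l = 5 / 256 := by linarith
      refine ⟨6, by norm_num, by norm_num, ?_⟩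
      show B (a 0) (a 6) = 1
      rw [h6, h5, h4, h3, hmv, hl']; norm_num

theorem Dih.exists_eq (D : Dih mul B a τ) : ∃ n : ℕ, 1 ≤ n ∧ n ≤ 6 ∧ a n = a 0 := by
  obtain ⟨n, h1, h2, h3⟩ := D.exists_one
  refine ⟨n, h1, h2, ?_⟩
  have h4 : B (a n - a 0) (a n - a 0) = 0 := by
    simp only [map_sub, LinearMap.sub_apply]
    rw [D.norm, D.norm, H93.Majorana.symm D.amb (a n) (a 0), h3]
    ring
  exact sub_eq_zero.mp (eq_zero_of_norm D.amb h4)

end Dih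

/-- the axis determines the Majorana involution -/
theorem mp_unique {μ μ' : V ≃ₗ[ℝ] V} {a : V} (P : MP mul B μ a) (P' : MP mul B μ' a) : μ = μ' := by
  ext x
  obtain ⟨c, u, v, w, rfl, hu, hv, hw⟩ := P.ax.dec x
  simp only [map_add, map_smul, P.m1, P.m0 u hu, P.ma v hv, P.mb w hw, P'.m1, P'.m0 u hu, P'.ma v hv, P'.mb w hw]

/-- automorphisms of product and form -/
def autG (mul : V →ₗ[ℝ] V →ₗ[ℝ] V) (B : LinearMap.BilinForm ℝ V) : Subgroup (V ≃ₗ[ℝ] V) where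
  carrier := {σ | (∀ u v, σ (mul u v) = mul (σ u) (σ v)) ∧ ∀ u v, B (σ u) (σ v) = B u v}
  one_mem' := ⟨fun _ _ => rfl, fun _ _ => rfl⟩
  mul_mem' := by
    rintro σ ρ ⟨h1, h2⟩ ⟨h3, h4⟩
    refine ⟨fun u v => ?_, fun u v => ?_⟩
    · show σ (ρ (mul u v)) = mul (σ (ρ u)) (σ (ρ v))
      rw [h3, h1]
    · show B (σ (ρ u)) (σ (ρ v)) = B u v
      rw [h2, h4]
  inv_mem' := by
    rintro σ ⟨h1, h2⟩
    have hss : ∀ x, σ (σ⁻¹ x) = x := fun x => σ.apply_symm_apply x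
    refine ⟨fun u v => ?_, fun u v => ?_⟩
    · apply σ.injective
      rw [h1, hss, hss, hss]
    · rw [← h2, hss, hss]

section Construct

variable (μ₀ μ₁ : V ≃ₗ[ℝ] V) (a₀ a₁ : V)

/-- the string of axes -/
def aI (i : ℤ) : V := ((μ₁ * μ₀) ^ (i / 2)) (if i % 2 = 0 then a₀ else a₁)

/-- the string of involutions -/
def tI (i : ℤ) : V ≃ₗ[ℝ] V := (μ₁ * μ₀) ^ (i / 2) * (if i % 2 = 0 then μ₀ else μ₁) * ((μ₁ * μ₀) ^ (i / 2))⁻¹

theorem aI_even (k : ℤ) : aI μ₀ μ₁ a₀ a₁ (2 * k) = ((μ₁ * μ₀) ^ k) a₀ := by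
  unfold aI
  have h1 : 2 * k / 2 = k := by omega
  have h2 : 2 * k % 2 = 0 := by omega
  rw [h1, if_pos h2]

theorem aI_odd (k : ℤ) : aI μ₀ μ₁ a₀ a₁ (2 * k + 1) = ((μ₁ * μ₀) ^ k) a₁ := by
  unfold aI
  have h1 : (2 * k + 1) / 2 = k := by omega
  have h2 : ¬ (2 * k + 1) % 2 = 0 := by omega
  rw [h1, if_neg h2]

theorem tI_even (k : ℤ) : tI μ₀ μ₁ (2 * k) = (μ₁ * μ₀) ^ k * μ₀ * ((μ₁ * μ₀) ^ k)⁻¹ := by
  unfold tI
  have h1 : 2 * k / 2 = k := by omega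
  have h2 : 2 * k % 2 = 0 := by omega
  rw [h1, if_pos h2]

theorem tI_odd (k : ℤ) : tI μ₀ μ₁ (2 * k + 1) = (μ₁ * μ₀) ^ k * μ₁ * ((μ₁ * μ₀) ^ k)⁻¹ := by
  unfold tI
  have h1 : (2 * k + 1) / 2 = k := by omega
  have h2 : ¬ (2 * k + 1) % 2 = 0 := by omega
  rw [h1, if_neg h2]

variable {μ₀ μ₁ a₀ a₁}

theorem dih (hV : IsMajoranaAmbient mul B) (h₀ : IsMajoranaPair mul B μ₀ a₀) (h₁ : IsMajoranaPair mul B μ₁ a₁)
    (hn₀ : B a₀ a₀ = 1) (hn₁ : B a₁ a₁ = 1) : Dih mul B (aI μ₀ μ₁ a₀ a₁) (tI μ₀ μ₁) := by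
  have P₀ := mp_of_pair h₀
  have P₁ := mp_of_pair h₁
  have m0 : μ₀ ∈ autG mul B := ⟨P₀.hmul, P₀.hB⟩
  have m1 : μ₁ ∈ autG mul B := ⟨P₁.hmul, P₁.hB⟩
  have hσ : ∀ k : ℤ, (μ₁ * μ₀) ^ k ∈ autG mul B := fun k => (autG mul B).zpow_mem ((autG mul B).mul_mem m1 m0) k
  have i0 : μ₀⁻¹ = μ₀ := by
    apply inv_eq_of_mul_eq_one_left
    ext x
    exact P₀.invol x
  have i1 : μ₁⁻¹ = μ₁ := by
    apply inv_eq_of_mul_eq_one_left
    ext x
    exact P₁.invol x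
  have c0 : ∀ k : ℤ, μ₀ * (μ₁ * μ₀) ^ k = (μ₁ * μ₀) ^ (-k) * μ₀ := by
    intro k
    have h1 : μ₀ * (μ₁ * μ₀) ^ k * μ₀⁻¹ = (μ₀ * (μ₁ * μ₀) * μ₀⁻¹) ^ k := (conj_zpow).symm
    have h2 : μ₀ * (μ₁ * μ₀) * μ₀⁻¹ = (μ₁ * μ₀)⁻¹ := by
      rw [mul_inv_rev, i0, i1]
      have h3 : μ₀ * μ₀ = 1 := by ext x; exact P₀.invol x
      calc μ₀ * (μ₁ * μ₀) * μ₀ = μ₀ * μ₁ * (μ₀ * μ₀) := by simp only [mul_assoc]
        _ = μ₀ * μ₁ := by rw [h3, mul_one]
    rw [h2, inv_zpow'] at h1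
    rw [← h1]; group
  have c1 : ∀ k : ℤ, μ₁ * (μ₁ * μ₀) ^ k = (μ₁ * μ₀) ^ (-k) * μ₁ := by
    intro k
    have h1 : μ₁ * (μ₁ * μ₀) ^ k * μ₁⁻¹ = (μ₁ * (μ₁ * μ₀) * μ₁⁻¹) ^ k := (conj_zpow).symm
    have h2 : μ₁ * (μ₁ * μ₀) * μ₁⁻¹ = (μ₁ * μ₀)⁻¹ := by
      rw [mul_inv_rev, i0, i1]
      have h3 : μ₁ * μ₁ = 1 := by ext x; exact P₁.invol x
      calc μ₁ * (μ₁ * μ₀) * μ₁ = (μ₁ * μ₁) * (μ₀ * μ₁) := by simp only [mul_assoc]
        _ = μ₀ * μ₁ := by rw [h3, one_mul]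
    rw [h2, inv_zpow'] at h1
    rw [← h1]; group
  have s01 : μ₀ a₁ = ((μ₁ * μ₀) ^ (-1 : ℤ)) a₁ := by
    rw [zpow_neg_one, mul_inv_rev, i0, i1]
    show μ₀ a₁ = μ₀ (μ₁ a₁)
    rw [P₁.m1]
  have s10 : μ₁ a₀ = ((μ₁ * μ₀) ^ (1 : ℤ)) a₀ := by
    rw [zpow_one]
    show μ₁ a₀ = μ₁ (μ₀ a₀)
    rw [P₀.m1]
  refine ⟨hV, ?_, ?_, ?_⟩
  · intro i
    rcases Int.even_or_odd' i with ⟨k, rfl | rfl⟩
    · rw [aI_even, tI_even]
      exact mp_of_pair (conj_pair h₀ (hσ k).1 (hσ k).2)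
    · rw [aI_odd, tI_odd]
      exact mp_of_pair (conj_pair h₁ (hσ k).1 (hσ k).2)
  · intro i
    rcases Int.even_or_odd' i with ⟨k, rfl | rfl⟩
    · rw [aI_even, (hσ k).2, hn₀]
    · rw [aI_odd, (hσ k).2, hn₁]
  · intro i j
    have key : ∀ (M : V ≃ₗ[ℝ] V) (k n : ℤ) (x : V), (∀ n : ℤ, M * (μ₁ * μ₀) ^ n = (μ₁ * μ₀) ^ (-n) * M) →
        ((μ₁ * μ₀) ^ k * M * ((μ₁ * μ₀) ^ k)⁻¹) (((μ₁ * μ₀) ^ n) x) = ((μ₁ * μ₀) ^ (2 * k - n)) (M x) := by
      intro M k n x hM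
      have h1 : (μ₁ * μ₀) ^ k * M * ((μ₁ * μ₀) ^ k)⁻¹ * (μ₁ * μ₀) ^ n = (μ₁ * μ₀) ^ (2 * k - n) * M := by
        have h2 : ((μ₁ * μ₀) ^ k)⁻¹ * (μ₁ * μ₀) ^ n = (μ₁ * μ₀) ^ (n - k) := by
          rw [← zpow_neg, ← zpow_add]; congr 1; ring
        calc (μ₁ * μ₀) ^ k * M * ((μ₁ * μ₀) ^ k)⁻¹ * (μ₁ * μ₀) ^ n =
            (μ₁ * μ₀) ^ k * (M * (((μ₁ * μ₀) ^ k)⁻¹ * (μ₁ * μ₀) ^ n)) := by simp only [mul_assoc]
          _ = (μ₁ * μ₀) ^ k * ((μ₁ * μ₀) ^ (-(n - k)) * M) := by rw [h2, hM]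
          _ = (μ₁ * μ₀) ^ k * (μ₁ * μ₀) ^ (-(n - k)) * M := by simp only [mul_assoc]
          _ = (μ₁ * μ₀) ^ (2 * k - n) * M := by rw [← zpow_add]; congr 2; ring
      exact congrArg (fun f : V ≃ₗ[ℝ] V => f x) h1
    have app : ∀ (p q : ℤ) (x : V), ((μ₁ * μ₀) ^ p) (((μ₁ * μ₀) ^ q) x) = ((μ₁ * μ₀) ^ (p + q)) x := by
      intro p q x
      rw [zpow_add]; rfl
    rcases Int.even_or_odd' i with ⟨k, rfl | rfl⟩ <;> rcases Int.even_or_odd' j with ⟨n, rfl | rfl⟩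
    · rw [tI_even, aI_even, key μ₀ k n a₀ c0, P₀.m1]
      have e : 2 * (2 * k) - 2 * n = 2 * (2 * k - n) := by ring
      rw [e, aI_even]
    · rw [tI_even, aI_odd, key μ₀ k n a₁ c0, s01, app]
      have e : 2 * (2 * k) - (2 * n + 1) = 2 * (2 * k - n + -1) + 1 := by ring
      rw [e, aI_odd]
    · rw [tI_odd, aI_even, key μ₁ k n a₀ c1, s10, app]
      have e : 2 * (2 * k + 1) - 2 * n = 2 * (2 * k - n + 1) := by ring
      rw [e, aI_even]
    · rw [tI_odd, aI_odd, key μ₁ k n a₁ c1, P₁.m1]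
      have e : 2 * (2 * k + 1) - (2 * n + 1) = 2 * (2 * k - n) + 1 := by ring
      rw [e, aI_odd]

/-- Sakuma's theorem: the product of two Majorana involutions with axes of length one has order at most six -/
theorem six_transposition (hV : IsMajoranaAmbient mul B) (h₀ : IsMajoranaPair mul B μ₀ a₀)
    (h₁ : IsMajoranaPair mul B μ₁ a₁) (hn₀ : B a₀ a₀ = 1) (hn₁ : B a₁ a₁ = 1) :
    ∃ n : ℕ, 1 ≤ n ∧ n ≤ 6 ∧ (μ₀ * μ₁) ^ n = 1 := by
  have D := dih hV h₀ h₁ hn₀ hn₁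
  obtain ⟨n, hn1, hn6, hn⟩ := D.exists_eq
  refine ⟨n, hn1, hn6, ?_⟩
  have P₀ := mp_of_pair h₀
  have P₁ := mp_of_pair h₁
  have i0 : μ₀⁻¹ = μ₀ := by
    apply inv_eq_of_mul_eq_one_left
    ext x
    exact P₀.invol x
  have i1 : μ₁⁻¹ = μ₁ := by
    apply inv_eq_of_mul_eq_one_left
    ext x
    exact P₁.invol x
  have h00 : μ₀ * μ₀ = 1 := by ext x; exact P₀.invol x
  have ht : tI μ₀ μ₁ n = tI μ₀ μ₁ 0 := by
    have q1 := D.mp n
    rw [hn] at q1
    exact mp_unique q1 (D.mp 0)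
  have ht0 : tI μ₀ μ₁ 0 = μ₀ := by
    have := tI_even μ₀ μ₁ 0
    simpa using this
  rw [ht0] at ht
  have hinv : (μ₀ * μ₁) = (μ₁ * μ₀)⁻¹ := by rw [mul_inv_rev, i0, i1]
  have c0 : ∀ k : ℤ, μ₀ * (μ₁ * μ₀) ^ k * μ₀ = (μ₁ * μ₀) ^ (-k) := by
    intro k
    have h1 : μ₀ * (μ₁ * μ₀) ^ k * μ₀⁻¹ = (μ₀ * (μ₁ * μ₀) * μ₀⁻¹) ^ k := (conj_zpow).symm
    have h2 : μ₀ * (μ₁ * μ₀) * μ₀⁻¹ = (μ₁ * μ₀)⁻¹ := by
      rw [mul_inv_rev, i0, i1]
      calc μ₀ * (μ₁ * μ₀) * μ₀ = μ₀ * μ₁ * (μ₀ * μ₀) := by simp only [mul_assoc]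
        _ = μ₀ * μ₁ := by rw [h00, mul_one]
    rw [h2, inv_zpow', i0] at h1
    exact h1
  have hfin : (μ₁ * μ₀) ^ (-(n : ℤ)) = 1 := by
    rcases Int.even_or_odd' (n : ℤ) with ⟨k, hk | hk⟩
    · rw [hk, tI_even] at ht
      have h1 : μ₀ * ((μ₁ * μ₀) ^ k * μ₀ * ((μ₁ * μ₀) ^ k)⁻¹) = 1 := by rw [ht, h00]
      have h2 : μ₀ * ((μ₁ * μ₀) ^ k * μ₀ * ((μ₁ * μ₀) ^ k)⁻¹) = (μ₁ * μ₀) ^ (-(2 * k)) := by
        calc μ₀ * ((μ₁ * μ₀) ^ k * μ₀ * ((μ₁ * μ₀) ^ k)⁻¹) = (μ₀ * (μ₁ * μ₀) ^ k * μ₀) * ((μ₁ * μ₀) ^ k)⁻¹ := by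
              simp only [mul_assoc]
          _ = (μ₁ * μ₀) ^ (-k) * (μ₁ * μ₀) ^ (-k) := by rw [c0, zpow_neg]
          _ = _ := by rw [← zpow_add]; congr 1; ring
      rw [hk, ← h2, h1]
    · rw [hk, tI_odd] at ht
      have h1 : μ₀ * ((μ₁ * μ₀) ^ k * μ₁ * ((μ₁ * μ₀) ^ k)⁻¹) = 1 := by rw [ht, h00]
      have h2 : μ₀ * ((μ₁ * μ₀) ^ k * μ₁ * ((μ₁ * μ₀) ^ k)⁻¹) = (μ₁ * μ₀) ^ (-(2 * k + 1)) := by
        calc μ₀ * ((μ₁ * μ₀) ^ k * μ₁ * ((μ₁ * μ₀) ^ k)⁻¹) =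
              (μ₀ * (μ₁ * μ₀) ^ k * μ₀) * (μ₀⁻¹ * μ₁ * ((μ₁ * μ₀) ^ k)⁻¹) := by group
          _ = (μ₁ * μ₀) ^ (-k) * ((μ₀ * μ₁) * (μ₁ * μ₀) ^ (-k)) := by rw [c0, zpow_neg, i0]
          _ = (μ₁ * μ₀) ^ (-k) * ((μ₁ * μ₀) ^ (-1 : ℤ) * (μ₁ * μ₀) ^ (-k)) := by rw [hinv, zpow_neg_one]
          _ = _ := by rw [← zpow_add, ← zpow_add]; congr 1; ring
      rw [hk, ← h2, h1]
  rw [hinv, inv_pow, ← zpow_natCast, ← zpow_neg]
  exact hfin

end Construct

end H93.Sakuma
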