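import Cfsg.Agent.Lib.H93.YPlane
import Cfsg.Prelude.Def_Spor_M

/-!
`Y555` with the spider relation: the six `E₇` relations for the end nodes.
-/

set_option autoImplicit false
set_option maxRecDepth 100000

noncomputable section

namespace H93.Y555

open Cfsg.Spor H93.YGlue

/-- the spider relator -/
abbrev exP : List (FreeGroup Bimonster.Gen) :=
  [(Bimonster.a * Bimonster.b1 * Bimonster.c1 * Bimonster.a * Bimonster.b2 * Bimonster.c2 * Bimonster.a *
    Bimonster.b3 * Bimonster.c3) ^ 10]

/-- `Y555` with the spider relation -/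
abbrev P := CoxPresented Bimonster.Gen Bimonster.edges exP

/-- generators -/
def p (x : Bimonster.Gen) : P := PresentedGroup.of x

theorem hnP : ∀ x, x ∈ coxNodes Bimonster.edges := by intro x; cases x <;> decide

theorem p_rel (x y : Bimonster.Gen) : (p x * p y) ^ coxLabel Bimonster.edges x y = 1 :=
  H34.TC.gn_rel (extra := exP) hnP x y

theorem p_sq (x : Bimonster.Gen) : p x * p x = 1 := by
  have h := p_rel x x
  have h1 : coxLabel Bimonster.edges x x = 1 := by simp [coxLabel]
  rwa [h1, pow_one] at h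

theorem p_comm {x y : Bimonster.Gen} (h : coxLabel Bimonster.edges x y = 2) : Commute (p x) (p y) := by
  have h1 := p_rel x y
  rw [h] at h1
  exact comm_of_sq (p_sq x) (p_sq y) h1

theorem pspider : (p .a * p .b1 * p .c1 * p .a * p .b2 * p .c2 * p .a * p .b3 * p .c3) ^ 10 = 1 := by
  have : (Bimonster.a * Bimonster.b1 * Bimonster.c1 * Bimonster.a * Bimonster.b2 * Bimonster.c2 * Bimonster.a *
    Bimonster.b3 * Bimonster.c3) ^ 10 ∈
      (coxRelators Bimonster.edges ∪ {r | r ∈ exP}) := Or.inr (List.mem_singleton.2 rfl)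
  have h := PresentedGroup.one_of_mem this
  simpa [p, PresentedGroup.of] using h

theorem rot9 {K : Type*} [Group K] (x y : K) (n : ℕ) (h : (x * y) ^ n = 1) : (y * x) ^ n = 1 := by
  have e : y * x = x⁻¹ * (x * y) * (x⁻¹)⁻¹ := by group
  rw [e, conj_pow, h, mul_one, mul_inv_cancel]

theorem pspider2 : (p .a * p .b2 * p .c2 * p .a * p .b3 * p .c3 * p .a * p .b1 * p .c1) ^ 10 = 1 := by
  have h := rot9 (p .a * p .b1 * p .c1) (p .a * p .b2 * p .c2 * p .a * p .b3 * p .c3) 10
    (by simpa only [mul_assoc] using pspider)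
  simpa only [mul_assoc] using h

theorem pspider3 : (p .a * p .b3 * p .c3 * p .a * p .b1 * p .c1 * p .a * p .b2 * p .c2) ^ 10 = 1 := by
  have h := rot9 (p .a * p .b2 * p .c2) (p .a * p .b3 * p .c3 * p .a * p .b1 * p .c1) 10
    (by simpa only [mul_assoc] using pspider2)
  simpa only [mul_assoc] using h

/-- the letters of `Y432` in `Y555` -/
def m : Fi23.Gen → Bimonster.Gen
  | .d => .a | .e => .b1 | .f => .c1 | .g => .d1 | .j => .e1 | .h => .b2 | .i => .c2 | .c => .b3 | .b => .c3 | .a => .d3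

theorem κ_rel : ∀ r ∈ (coxRelators Fi23.edges ∪ {r | r ∈ ex432}), FreeGroup.lift (fun x => p (m x)) r = 1 := by
  rintro r (⟨x, _, y, _, rfl⟩ | hr)
  · have h := p_rel (m x) (m y)
    have e : coxLabel Fi23.edges x y = coxLabel Bimonster.edges (m x) (m y) := by
      cases x <;> cases y <;> decide
    rw [e]
    simpa using h
  · have hr' : r ∈ ex432 := hr
    rw [List.mem_singleton] at hr'
    rw [hr']
    have h := pspider3
    simpa [m] using h

/-- the map -/
def κ : G →* P := PresentedGroup.toGroup κ_rel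

theorem κ_s (x : Fi23.Gen) : κ (s x) = p (m x) := PresentedGroup.toGroup.of κ_rel

theorem f1_eq (hj : (t .j * π w1) ^ 3 = 1) (hst : ∀ w ∈ YPlane.chk, (w.map t).prod ∈ Lb) :
    p .f1 = (p .a * p .b1 * p .b2 * p .b3 * p .c1 * p .c2 * p .d1) ^ 9 := by
  have h := YPlane.main (κ := κ) (f := p .f1) hj hst (p_sq .f1) (fun x hx => by
      rw [κ_s]
      apply p_comm
      cases x <;> first | exact absurd rfl hx | decide)
    (by rw [κ_s]; exact p_rel .e1 .f1)
  rw [h]
  unfold w1
  simp only [map_pow, map_mul, κ_s, m]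

/-- rotation of the arms -/
def ro : Bimonster.Gen → Bimonster.Gen
  | .a => .a | .b1 => .b2 | .c1 => .c2 | .d1 => .d2 | .e1 => .e2 | .f1 => .f2
  | .b2 => .b3 | .c2 => .c3 | .d2 => .d3 | .e2 => .e3 | .f2 => .f3
  | .b3 => .b1 | .c3 => .c1 | .d3 => .d1 | .e3 => .e1 | .f3 => .f1

theorem ro_lab (x y : Bimonster.Gen) : coxLabel Bimonster.edges x y = coxLabel Bimonster.edges (ro x) (ro y) := by
  cases x <;> cases y <;> decide

theorem ρ_rel : ∀ r ∈ (coxRelators Bimonster.edges ∪ {r | r ∈ exP}), FreeGroup.lift (fun x => p (ro x)) r = 1 := by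
  rintro r (⟨x, _, y, _, rfl⟩ | hr)
  · have h := p_rel (ro x) (ro y)
    rw [← ro_lab] at h
    simpa using h
  · have hr' : r ∈ exP := hr
    rw [List.mem_singleton] at hr'
    rw [hr']
    have h := pspider2
    simpa [ro] using h

/-- rotation -/
def ρ : P →* P := PresentedGroup.toGroup ρ_rel

theorem ρ_p (x : Bimonster.Gen) : ρ (p x) = p (ro x) := PresentedGroup.toGroup.of ρ_rel

/-- letters of `Y322` -/
def FP : Y322.Gen → Bimonster.Gen
  | .a => .a | .b => .b1 | .c => .c1 | .d => .d1 | .B => .b2 | .C => .c2 | .u => .b3 | .v => .c3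

theorem f1_eq' (hj : (t .j * π w1) ^ 3 = 1) (hst : ∀ w ∈ YPlane.chk, (w.map t).prod ∈ Lb) :
    p .f1 = (p .a * p .b1 * p .b3 * p .b2 * p .c1 * p .c3 * p .d1) ^ 9 := by
  have h := (YRel.facts' (fun x => p (FP x)) (fun x y => by
    have h := p_rel (FP x) (FP y)
    have e : coxLabel Y322.edges x y = coxLabel Bimonster.edges (FP x) (FP y) := by
      cases x <;> cases y <;> decide
    rw [e]; exact h) pspider).1
  rw [f1_eq hj hst]
  exact h

theorem all (hj : (t .j * π w1) ^ 3 = 1) (hst : ∀ w ∈ YPlane.chk, (w.map t).prod ∈ Lb) :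
    ∀ r ∈ Bimonster.extra, (PresentedGroup.mk (coxRelators Bimonster.edges ∪ {r' | r' ∈ exP}) r) = 1 := by
  have a1 := f1_eq hj hst
  have a2 := f1_eq' hj hst
  have b1 := congrArg ρ a1
  have b2 := congrArg ρ a2
  simp only [map_pow, map_mul, ρ_p, ro] at b1 b2
  have c1 := congrArg ρ b1
  have c2 := congrArg ρ b2
  simp only [map_pow, map_mul, ρ_p, ro] at c1 c2
  have hp : ∀ x, PresentedGroup.mk (coxRelators Bimonster.edges ∪ {r' | r' ∈ exP}) (FreeGroup.of x) = p x :=
    fun x => rfl
  intro r hr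
  simp only [Bimonster.extra, List.mem_cons, List.not_mem_nil, or_false] at hr
  rcases hr with rfl | rfl | rfl | rfl | rfl | rfl | rfl
  · simp only [map_pow, map_mul, hp]
    exact pspider
  · simp only [map_pow, map_mul, map_inv, hp]
    rw [← a1, mul_inv_cancel]
  · simp only [map_pow, map_mul, map_inv, hp]
    rw [← a2, mul_inv_cancel]
  · simp only [map_pow, map_mul, map_inv, hp]
    rw [← b2, mul_inv_cancel]
  · simp only [map_pow, map_mul, map_inv, hp]
    rw [← b1, mul_inv_cancel]
  · simp only [map_pow, map_mul, map_inv, hp]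
    rw [← c1, mul_inv_cancel]
  · simp only [map_pow, map_mul, map_inv, hp]
    rw [← c2, mul_inv_cancel]

end H93.Y555
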