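import Cfsg.Agent.Lib.H93.Y555
import Cfsg.Agent.Lib.H35.Fi23Main

/-!
The two facts about `Fi23` used in `YPlane`.
-/

set_option autoImplicit false
set_option maxRecDepth 100000

namespace H93.YFi23

open Cfsg.Spor H35.Net H93.YGlue H93.YPlane

abbrev lt : Fi23.Gen → H35.TCFi23A.Lt := H35.Fi23Main.toLt

theorem φ_word (w : List Fi23.Gen) :
    H35.Fi23Main.φ ((w.map t).prod) = ((w.map lt).map H35.NFi23.π).prod := by
  rw [map_list_prod, List.map_map, List.map_map]
  congr 1
  apply List.map_congr_left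
  intro x _
  show H35.Fi23Main.φ (PresentedGroup.of x) = H35.NFi23.π (H35.Fi23Main.toLt x)
  rw [← H35.Fi23Main.gP_toLt, H35.Fi23Main.hφ]

/-- `j` followed by the word of `w1` -/
def wj : List H35.TCFi23A.Lt := (lJ ++ lW).map lt

theorem chk_j : chkW H35.NFi23.net 15 wj 3 0 15 = true := by decide +kernel

theorem hj : (t .j * π w1) ^ 3 = 1 := by
  apply H35.Fi23Main.card_inj.2
  have e : t .j * π w1 = ((lJ ++ lW).map t).prod := by
    rw [← wd_lW, π_wd, List.map_append, List.prod_append]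
    simp [lJ]
  rw [e, map_pow, map_one, φ_word]
  exact pow_eq_one_of_chk H35.NFi23.hbp chk_j

/-- the words to be checked -/
def ws : List (List H35.TCFi23A.Lt) := chk.map fun w => w.map lt

theorem chk_ws : chkFixF H35.NFi23.net ws [0] = true := by decide +kernel

theorem Lb_eq_H1 : H35.Fi23Main.H1 = Lb := by
  unfold H35.Fi23Main.H1 Lb
  congr 1
  ext x
  constructor
  · rintro ⟨y, rfl⟩
    cases y
    · exact ⟨.a, by decide, rfl⟩
    · exact ⟨.b, by decide, rfl⟩
    · exact ⟨.c, by decide, rfl⟩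
    · exact ⟨.d, by decide, rfl⟩
    · exact ⟨.e, by decide, rfl⟩
    · exact ⟨.f, by decide, rfl⟩
    · exact ⟨.g, by decide, rfl⟩
    · exact ⟨.h, by decide, rfl⟩
    · exact ⟨.i, by decide, rfl⟩
  · rintro ⟨y, hy, rfl⟩
    cases y
    · exact ⟨.a, rfl⟩
    · exact ⟨.b, rfl⟩
    · exact ⟨.c, rfl⟩
    · exact ⟨.d, rfl⟩
    · exact ⟨.e, rfl⟩
    · exact ⟨.f, rfl⟩
    · exact ⟨.g, rfl⟩
    · exact absurd rfl hy
    · exact ⟨.h, rfl⟩
    · exact ⟨.i, rfl⟩

theorem fix_Lb : ∀ g ∈ Lb, H35.Fi23Main.φ g 0 = 0 := by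
  intro g hg
  unfold Lb at hg
  induction hg using Subgroup.closure_induction with
  | mem x hx =>
    obtain ⟨y, hy, rfl⟩ := hx
    have h : t y = ((([y] : List Fi23.Gen)).map t).prod := by simp
    rw [h, φ_word]
    apply H35.NFi23.subs_fix0
    cases y
    · simp [H35.TCFi23A.subs, H35.Fi23Main.toLt]
    · simp [H35.TCFi23A.subs, H35.Fi23Main.toLt]
    · simp [H35.TCFi23A.subs, H35.Fi23Main.toLt]
    · simp [H35.TCFi23A.subs, H35.Fi23Main.toLt]
    · simp [H35.TCFi23A.subs, H35.Fi23Main.toLt]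
    · simp [H35.TCFi23A.subs, H35.Fi23Main.toLt]
    · simp [H35.TCFi23A.subs, H35.Fi23Main.toLt]
    · exact absurd rfl hy
    · simp [H35.TCFi23A.subs, H35.Fi23Main.toLt]
    · simp [H35.TCFi23A.subs, H35.Fi23Main.toLt]
  | one => simp
  | mul x y _ _ hx hy => rw [map_mul, Equiv.Perm.mul_apply, hy, hx]
  | inv x _ hx => rw [map_inv, Equiv.Perm.inv_eq_iff_eq]; exact hx.symm

/-- the stabilizer of the base point -/
def St : Subgroup Fi23 where
  carrier := {g | H35.Fi23Main.φ g 0 = 0}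
  mul_mem' := by
    intro a b ha hb
    show H35.Fi23Main.φ (a * b) 0 = 0
    rw [map_mul, Equiv.Perm.mul_apply, show H35.Fi23Main.φ b 0 = 0 from hb, show H35.Fi23Main.φ a 0 = 0 from ha]
  one_mem' := by
    show H35.Fi23Main.φ 1 0 = 0
    simp
  inv_mem' := by
    intro a ha
    show H35.Fi23Main.φ a⁻¹ 0 = 0
    rw [map_inv, Equiv.Perm.inv_eq_iff_eq]
    exact (show H35.Fi23Main.φ a 0 = 0 from ha).symm

theorem St_index : 31671 ≤ St.index := by
  have := H35.Fi23Main.fin
  have hinj : Function.Injective (fun c : Fin 31671 => (((H35.Fi23Main.htr c c.2).choose : Fi23) : Fi23 ⧸ St)) := by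
    intro c d h
    have h1 := QuotientGroup.eq.1 h
    have hc := (H35.Fi23Main.htr c c.2).choose_spec
    have hd := (H35.Fi23Main.htr d d.2).choose_spec
    have h2 : H35.Fi23Main.φ ((H35.Fi23Main.htr c c.2).choose⁻¹ * (H35.Fi23Main.htr d d.2).choose) 0 = 0 := h1
    rw [map_mul, Equiv.Perm.mul_apply, hd, map_inv, Equiv.Perm.inv_eq_iff_eq, hc] at h2
    exact Fin.ext h2.symm
  have h3 := Nat.card_le_card_of_injective _ hinj
  rw [Nat.card_fin] at h3
  exact h3

theorem St_le : St ≤ Lb := by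
  have := H35.Fi23Main.fin
  have h0 : Lb.index ≤ 31671 := by
    have h := H35.Fi23Main.idx0.1
    rw [H35.Fi23Main.H0_top, Subgroup.relIndex_top_right, Lb_eq_H1] at h
    exact h
  have hle : Lb ≤ St := fun g hg => fix_Lb g hg
  have h1 := Subgroup.relIndex_mul_index hle
  have h2 := St_index
  have h3 : Lb.relIndex St = 1 := by
    have hpos : 0 < Lb.relIndex St := Nat.pos_of_ne_zero (by
      intro h
      rw [h, zero_mul] at h1
      exact Subgroup.FiniteIndex.index_ne_zero h1.symm)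
    have hlt : Lb.relIndex St < 2 := by
      by_contra hge
      have : 2 * St.index ≤ Lb.relIndex St * St.index := Nat.mul_le_mul_right _ (not_lt.1 hge)
      omega
    omega
  exact Subgroup.relIndex_eq_one.1 h3

theorem hst : ∀ w ∈ chk, (w.map t).prod ∈ Lb := by
  intro w hw
  apply St_le
  show H35.Fi23Main.φ _ 0 = 0
  rw [φ_word]
  exact prod_fix H35.NFi23.hbp chk_ws _ (List.mem_map.2 ⟨w, hw, rfl⟩) 0 (by simp)

theorem all : ∀ r ∈ Bimonster.extra,
    (PresentedGroup.mk (coxRelators Bimonster.edges ∪ {r' | r' ∈ Y555.exP}) r) = 1 := Y555.all hj hst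

end H93.YFi23
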