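import Cfsg.Agent.Lib.H93.YRel
import Cfsg.Prelude.Def_Spor_Fi23

/-!
The group `Y432` (spider relation only) and an involution extending it to `Y532`: the new node is the ninth power of
the `E₇` word. The two facts about `Fi23` that are used are parameters here (`hj`, `hst`).
-/

set_option autoImplicit false
set_option maxRecDepth 100000

noncomputable section

namespace H93.YGlue

open Cfsg.Spor

/-- the spider relator -/
abbrev ex432 : List (FreeGroup Fi23.Gen) :=
  [(Fi23.d * Fi23.c * Fi23.b * Fi23.d * Fi23.e * Fi23.f * Fi23.d * Fi23.h * Fi23.i) ^ 10]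

/-- `Y432` with the spider relation -/
abbrev G := CoxPresented Fi23.Gen Fi23.edges ex432

/-- generators of `G` -/
def s (x : Fi23.Gen) : G := PresentedGroup.of x

/-- generators of `Fi23` -/
def t (x : Fi23.Gen) : Fi23 := PresentedGroup.of x

theorem hn : ∀ x, x ∈ coxNodes Fi23.edges := by intro x; cases x <;> decide

theorem s_rel (x y : Fi23.Gen) : (s x * s y) ^ coxLabel Fi23.edges x y = 1 :=
  H34.TC.gn_rel (extra := ex432) hn x y

theorem t_rel (x y : Fi23.Gen) : (t x * t y) ^ coxLabel Fi23.edges x y = 1 :=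
  H34.TC.gn_rel (extra := Fi23.extra) hn x y

theorem s_sq (x : Fi23.Gen) : s x * s x = 1 := by
  have h := s_rel x x
  have h1 : coxLabel Fi23.edges x x = 1 := by simp [coxLabel]
  rwa [h1, pow_one] at h

theorem s_inv (x : Fi23.Gen) : (s x)⁻¹ = s x := inv_eq_of_mul_eq_one_left (s_sq x)

theorem comm_of_sq {K : Type*} [Group K] {x y : K} (hx : x * x = 1) (hy : y * y = 1) (h : (x * y) ^ 2 = 1) :
    Commute x y := by
  have hx' : x⁻¹ = x := inv_eq_of_mul_eq_one_left hx
  have hy' : y⁻¹ = y := inv_eq_of_mul_eq_one_left hy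
  rw [pow_two] at h
  have h2 := eq_inv_of_mul_eq_one_left h
  rw [mul_inv_rev, hx', hy'] at h2
  exact h2

theorem s_comm {x y : Fi23.Gen} (h : coxLabel Fi23.edges x y = 2) : Commute (s x) (s y) := by
  have h1 := s_rel x y
  rw [h] at h1
  exact comm_of_sq (s_sq x) (s_sq y) h1

theorem spider : (s .d * s .c * s .b * s .d * s .e * s .f * s .d * s .h * s .i) ^ 10 = 1 := by
  have : (Fi23.d * Fi23.c * Fi23.b * Fi23.d * Fi23.e * Fi23.f * Fi23.d * Fi23.h * Fi23.i) ^ 10 ∈
      (coxRelators Fi23.edges ∪ {r | r ∈ ex432}) := Or.inr (List.mem_singleton.2 rfl)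
  have h := PresentedGroup.one_of_mem this
  simpa [s, PresentedGroup.of] using h

theorem spider' : (s .d * s .e * s .f * s .d * s .h * s .i * s .d * s .c * s .b) ^ 10 = 1 := by
  have h := spider
  have e : s .d * s .e * s .f * s .d * s .h * s .i * s .d * s .c * s .b =
      (s .d * s .c * s .b)⁻¹ * (s .d * s .c * s .b * s .d * s .e * s .f * s .d * s .h * s .i) *
        ((s .d * s .c * s .b)⁻¹)⁻¹ := by
    group
  rw [e, conj_pow, h, mul_one, mul_inv_cancel]

/-- letters for arms 3, 1, 2 -/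
def FA : Y322.Gen → Fi23.Gen
  | .a => .d | .b => .c | .c => .b | .d => .a | .B => .e | .C => .f | .u => .h | .v => .i

/-- letters for arms 1, 2, 3 -/
def FB : Y322.Gen → Fi23.Gen
  | .a => .d | .b => .e | .c => .f | .d => .g | .B => .h | .C => .i | .u => .c | .v => .b

/-- the central element -/
def w3 : G := (s .d * s .c * s .e * s .h * s .b * s .f * s .a) ^ 9

/-- the candidate for the new node -/
def w1 : G := (s .d * s .e * s .h * s .c * s .f * s .i * s .g) ^ 9

theorem factsA : w3 = (s .d * s .c * s .h * s .e * s .b * s .i * s .a) ^ 9 ∧ w3 * w3 = 1 ∧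
    (s .a * s .b * s .c * s .d * s .e * s .f * s .h) ^ 9 = w3 ∧ ∀ x, Commute w3 (s (FA x)) := by
  have h := YRel.facts' (fun x => s (FA x)) (fun x y => by
    have h := s_rel (FA x) (FA y)
    have e : coxLabel Y322.edges x y = coxLabel Fi23.edges (FA x) (FA y) := by
      cases x <;> cases y <;> decide
    rw [e]; exact h) spider
  exact h

theorem factsB : w1 = (s .d * s .e * s .c * s .h * s .f * s .b * s .g) ^ 9 ∧ w1 * w1 = 1 ∧
    ∀ x, Commute w1 (s (FB x)) := by
  have h := YRel.facts' (fun x => s (FB x)) (fun x y => by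
    have h := s_rel (FB x) (FB y)
    have e : coxLabel Y322.edges x y = coxLabel Fi23.edges (FB x) (FB y) := by
      cases x <;> cases y <;> decide
    rw [e]; exact h) spider'
  exact ⟨h.1, h.2.1, h.2.2.2⟩

theorem comm_pow7 {K : Type*} [Group K] {x a b c d e f g : K} (ha : Commute a x) (hb : Commute b x)
    (hc : Commute c x) (hd : Commute d x) (he : Commute e x) (hf : Commute f x) (hg : Commute g x) :
    Commute ((a * b * c * d * e * f * g) ^ 9) x :=
  ((((((ha.mul_left hb).mul_left hc).mul_left hd).mul_left he).mul_left hf).mul_left hg).pow_left 9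

theorem w3_comm (x : Fi23.Gen) : Commute w3 (s x) := by
  cases x
  · exact factsA.2.2.2 .d
  · exact factsA.2.2.2 .c
  · exact factsA.2.2.2 .b
  · exact factsA.2.2.2 .a
  · exact factsA.2.2.2 .B
  · exact factsA.2.2.2 .C
  · rw [factsA.1]
    apply comm_pow7 <;> exact s_comm (by decide)
  · rw [factsA.1]
    apply comm_pow7 <;> exact s_comm (by decide)
  · exact factsA.2.2.2 .u
  · exact factsA.2.2.2 .v

theorem w1_comm (x : Fi23.Gen) (hx : x ≠ .j) : Commute w1 (s x) := by
  cases x
  · unfold w1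
    apply comm_pow7 <;> exact s_comm (by decide)
  · exact factsB.2.2 .v
  · exact factsB.2.2 .u
  · exact factsB.2.2 .a
  · exact factsB.2.2 .b
  · exact factsB.2.2 .c
  · exact factsB.2.2 .d
  · exact absurd rfl hx
  · exact factsB.2.2 .B
  · exact factsB.2.2 .C

theorem closure_s : Subgroup.closure (Set.range s) = ⊤ := by
  rw [eq_top_iff, ← PresentedGroup.closure_range_of]
  rfl

theorem w3_center : w3 ∈ Subgroup.center G := by
  rw [Subgroup.mem_center_iff]
  intro g
  have hg : g ∈ Subgroup.closure (Set.range s) := by rw [closure_s]; trivial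
  induction hg using Subgroup.closure_induction with
  | mem x hx =>
    obtain ⟨y, rfl⟩ := hx
    exact (w3_comm y).symm.eq
  | one => simp
  | mul x y _ _ hx hy => rw [mul_assoc, hy, ← mul_assoc, hx, mul_assoc]
  | inv x _ hx =>
    have : Commute x w3 := hx
    exact this.inv_left.eq

/-! ### the quotient map to `Fi23` -/

theorem rel_sub : ∀ r ∈ (coxRelators Fi23.edges ∪ {r | r ∈ ex432}), FreeGroup.lift t r = 1 := by
  have key : FreeGroup.lift t = PresentedGroup.mk (coxRelators Fi23.edges ∪ {r | r ∈ Fi23.extra}) := by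
    ext x
    simp [t, PresentedGroup.of]
  intro r hr
  rw [key]
  apply PresentedGroup.one_of_mem
  rcases hr with hr | hr
  · exact Or.inl hr
  · right
    have hr' : r ∈ ex432 := hr
    rw [List.mem_singleton] at hr'
    show r ∈ Fi23.extra
    rw [hr', Fi23.extra]
    exact List.mem_cons_self ..

/-- the map to `Fi23` -/
def π : G →* Fi23 := PresentedGroup.toGroup rel_sub

theorem π_s (x : Fi23.Gen) : π (s x) = t x := PresentedGroup.toGroup.of rel_sub

theorem ker_π {g : G} (hg : π g = 1) : g = 1 ∨ g = w3 := by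
  have hN : (Subgroup.zpowers w3).Normal := by
    constructor
    intro n hn g
    have : n ∈ Subgroup.center G := (Subgroup.zpowers_le.2 w3_center) hn
    rw [Subgroup.mem_center_iff] at this
    rw [this g, mul_inv_cancel_right]
    exact hn
  let q : G →* G ⧸ Subgroup.zpowers w3 := QuotientGroup.mk' _
  have hrel : ∀ r ∈ (coxRelators Fi23.edges ∪ {r | r ∈ Fi23.extra}), FreeGroup.lift (fun x => q (s x)) r = 1 := by
    have key : FreeGroup.lift (fun x => q (s x)) =
        q.comp (PresentedGroup.mk (coxRelators Fi23.edges ∪ {r | r ∈ ex432})) := by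
      ext x
      simp [s, PresentedGroup.of]
    intro r hr
    rw [key, MonoidHom.comp_apply]
    rcases hr with hr | hr
    · rw [PresentedGroup.one_of_mem (Or.inl hr), map_one]
    · have hr' : r ∈ Fi23.extra := hr
      simp only [Fi23.extra, List.mem_cons, List.not_mem_nil, or_false] at hr'
      rcases hr' with rfl | rfl
      · rw [PresentedGroup.one_of_mem (Or.inr (List.mem_singleton.2 rfl)), map_one]
      · have e : PresentedGroup.mk (coxRelators Fi23.edges ∪ {r | r ∈ ex432})
            ((Fi23.a * Fi23.b * Fi23.c * Fi23.d * Fi23.e * Fi23.f * Fi23.h) ^ 9) = w3 := by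
          rw [← factsA.2.2.1]
          simp [s, PresentedGroup.of]
        rw [e]
        exact (QuotientGroup.eq_one_iff _).2 (Subgroup.mem_zpowers _)
  let θ : Fi23 →* G ⧸ Subgroup.zpowers w3 := PresentedGroup.toGroup hrel
  have hθ : θ.comp π = q := by
    have h : ∀ x, (θ.comp π) (s x) = q (s x) := by
      intro x
      rw [MonoidHom.comp_apply, π_s]
      exact PresentedGroup.toGroup.of hrel
    apply MonoidHom.eq_of_eqOn_dense closure_s
    rintro _ ⟨x, rfl⟩
    exact h x
  have h1 : q g = 1 := by rw [← hθ, MonoidHom.comp_apply, hg, map_one]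
  have h2 : g ∈ Subgroup.zpowers w3 := (QuotientGroup.eq_one_iff _).1 h1
  obtain ⟨k, rfl⟩ := Subgroup.mem_zpowers_iff.1 h2
  rcases Int.even_or_odd' k with ⟨m, rfl | rfl⟩
  · left
    show w3 ^ (2 * m) = 1
    rw [zpow_mul, show w3 ^ (2 : ℤ) = 1 from by rw [zpow_two]; exact factsA.2.1, one_zpow]
  · right
    show w3 ^ (2 * m + 1) = w3
    rw [zpow_add, zpow_mul, show w3 ^ (2 : ℤ) = 1 from by rw [zpow_two]; exact factsA.2.1, one_zpow, one_mul, zpow_one]

/-! ### the sign -/

theorem sgn_rel : ∀ r ∈ (coxRelators Fi23.edges ∪ {r | r ∈ ex432}), FreeGroup.lift (fun _ => (-1 : ℤˣ)) r = 1 := by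
  rintro r (⟨x, _, y, _, rfl⟩ | hr)
  · simp
  · have hr' : r ∈ ex432 := hr
    rw [List.mem_singleton] at hr'
    rw [hr']
    simp only [map_pow, map_mul, FreeGroup.lift_apply_of]
    decide

/-- the sign -/
def sgn : G →* ℤˣ := PresentedGroup.toGroup sgn_rel

theorem sgn_s (x : Fi23.Gen) : sgn (s x) = -1 := PresentedGroup.toGroup.of sgn_rel

theorem sgn_w3 : sgn w3 = -1 := by
  unfold w3
  simp only [map_pow, map_mul, sgn_s]
  decide

theorem sgn_w1 : sgn w1 = -1 := by
  unfold w1
  simp only [map_pow, map_mul, sgn_s]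
  decide

theorem braid_G (hj : (t .j * π w1) ^ 3 = 1) : (s .j * w1) ^ 3 = 1 := by
  have h1 : π ((s .j * w1) ^ 3) = 1 := by rw [map_pow, map_mul, π_s]; exact hj
  rcases ker_π h1 with h | h
  · exact h
  · exfalso
    have h2 := congrArg sgn h
    rw [sgn_w3, map_pow, map_mul, sgn_s, sgn_w1] at h2
    revert h2
    decide

/-! ### the involution `z` -/

/-- the subgroup generated by all generators but `j` -/
def L : Subgroup G := Subgroup.closure {x | ∃ y, y ≠ Fi23.Gen.j ∧ x = s y}

/-- its image in `Fi23` -/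
def Lb : Subgroup Fi23 := Subgroup.closure {x | ∃ y, y ≠ Fi23.Gen.j ∧ x = t y}

theorem Lb_eq : Lb = L.map π := by
  unfold L Lb
  rw [MonoidHom.map_closure]
  congr 1
  ext x
  constructor
  · rintro ⟨y, hy, rfl⟩
    exact ⟨s y, ⟨y, hy, rfl⟩, π_s y⟩
  · rintro ⟨_, ⟨y, hy, rfl⟩, rfl⟩
    exact ⟨y, hy, π_s y⟩

theorem s_mem {y : Fi23.Gen} (hy : y ≠ .j) : s y ∈ L := Subgroup.subset_closure ⟨y, hy, rfl⟩

theorem w3_mem : w3 ∈ L := by
  unfold w3
  apply Subgroup.pow_mem
  refine L.mul_mem (L.mul_mem (L.mul_mem (L.mul_mem (L.mul_mem (L.mul_mem ?_ ?_) ?_) ?_) ?_) ?_) ?_ <;>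
    exact s_mem (by decide)

section main

variable {P : Type*} [Group P] (κ : G →* P) (f : P)

theorem braid_of {x y : P} (hx : x * x = 1) (hy : y * y = 1) (h : (x * y) ^ 3 = 1) : y * x * y = x * y * x := by
  have hx' : x⁻¹ = x := inv_eq_of_mul_eq_one_left hx
  have hy' : y⁻¹ = y := inv_eq_of_mul_eq_one_left hy
  have h1 : (x * y * x) * (y * x * y) = 1 := by
    rw [← h]; simp only [pow_succ, pow_zero, one_mul, mul_assoc]
  have h2 := eq_inv_of_mul_eq_one_right h1
  rw [h2]
  simp only [mul_inv_rev, hx', hy', mul_assoc]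

/-- conjugate of `z` -/
def zet (g : G) : P := κ g * (f * κ w1) * (κ g)⁻¹

variable {κ f} (hj : (t .j * π w1) ^ 3 = 1) (hf : f * f = 1)
  (hfc : ∀ x, x ≠ Fi23.Gen.j → Commute f (κ (s x))) (hfj : (κ (s .j) * f) ^ 3 = 1)

include hfc in
theorem z_comm {l : G} (hl : l ∈ L) : Commute (f * κ w1) (κ l) := by
  induction hl using Subgroup.closure_induction with
  | mem x hx =>
    obtain ⟨y, hy, rfl⟩ := hx
    exact (hfc y hy).mul_left ((w1_comm y hy).map κ)
  | one => rw [map_one]; exact Commute.one_right _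
  | mul x y _ _ hx hy => rw [map_mul]; exact hx.mul_right hy
  | inv x _ hx => rw [map_inv]; exact hx.inv_right

include hfc in
theorem f_comm_w1 : Commute f (κ w1) := by
  unfold w1
  rw [map_pow]
  simp only [map_mul]
  exact (comm_pow7 (hfc _ (by decide)).symm (hfc _ (by decide)).symm (hfc _ (by decide)).symm (hfc _ (by decide)).symm
    (hfc _ (by decide)).symm (hfc _ (by decide)).symm (hfc _ (by decide)).symm).symm

include hf hfc in
theorem z_sq : (f * κ w1) * (f * κ w1) = 1 := by
  have h := f_comm_w1 hfc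
  have h2 : κ w1 * κ w1 = 1 := by rw [← map_mul, factsB.2.1, map_one]
  calc (f * κ w1) * (f * κ w1) = f * (κ w1 * f) * κ w1 := by simp only [mul_assoc]
    _ = f * (f * κ w1) * κ w1 := by rw [h.eq]
    _ = (f * f) * (κ w1 * κ w1) := by simp only [mul_assoc]
    _ = 1 := by rw [hf, h2, one_mul]

include hf hfc in
theorem zet_sq (g : G) : zet κ f g * zet κ f g = 1 := by
  unfold zet
  calc κ g * (f * κ w1) * (κ g)⁻¹ * (κ g * (f * κ w1) * (κ g)⁻¹) =
      κ g * ((f * κ w1) * (f * κ w1)) * (κ g)⁻¹ := by group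
    _ = 1 := by rw [z_sq hf hfc, mul_one, mul_inv_cancel]

include hfc in
theorem zet_same {g g' : G} (h : (π g)⁻¹ * π g' ∈ Lb) : zet κ f g = zet κ f g' := by
  rw [Lb_eq] at h
  obtain ⟨l, hl, hl2⟩ := h
  have h1 : π (g⁻¹ * g' * l⁻¹) = 1 := by
    rw [map_mul, map_mul, map_inv, map_inv, hl2, mul_inv_cancel]
  have h2 : g⁻¹ * g' ∈ L := by
    rcases ker_π h1 with h3 | h3
    · rw [mul_inv_eq_one] at h3
      rw [h3]; exact hl
    · rw [mul_inv_eq_iff_eq_mul] at h3
      rw [h3]; exact L.mul_mem w3_mem hl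
  have h3 := z_comm hfc h2
  have e : g' = g * (g⁻¹ * g') := by group
  rw [e]
  generalize g⁻¹ * g' = m at h3
  unfold zet
  rw [map_mul, mul_inv_rev]
  calc κ g * (f * κ w1) * (κ g)⁻¹ = κ g * ((f * κ w1) * κ m) * (κ m)⁻¹ * (κ g)⁻¹ := by group
    _ = κ g * (κ m * (f * κ w1)) * (κ m)⁻¹ * (κ g)⁻¹ := by rw [h3.eq]
    _ = _ := by simp only [mul_assoc]

include hj hf hfc hfj in
theorem zet_line (g : G) : zet κ f g * zet κ f (g * s .j) = zet κ f (g * w1 * s .j) := by
  have hJ : κ (s .j) * κ (s .j) = 1 := by rw [← map_mul, s_sq, map_one]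
  have hW : κ w1 * κ w1 = 1 := by rw [← map_mul, factsB.2.1, map_one]
  have hb1 := braid_of hJ hf hfj
  have hb2 : κ w1 * κ (s .j) * κ w1 = κ (s .j) * κ w1 * κ (s .j) := by
    apply braid_of hJ hW
    rw [← map_mul, ← map_pow, braid_G hj, map_one]
  have hc := (f_comm_w1 hfc).eq
  have hJi : (κ (s .j))⁻¹ = κ (s .j) := inv_eq_of_mul_eq_one_left hJ
  have hWi : (κ w1)⁻¹ = κ w1 := inv_eq_of_mul_eq_one_left hW
  unfold zet
  simp only [map_mul, mul_inv_rev, hJi, hWi]
  generalize κ (s .j) = J at *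
  generalize κ w1 = W at *
  generalize κ g = k
  have key : f * W * (J * (f * W) * J) = W * J * (f * W) * (J * W) := by
    calc f * W * (J * (f * W) * J) = (f * W) * J * f * W * J := by simp only [mul_assoc]
      _ = (W * f) * J * f * W * J := by rw [hc]
      _ = W * (f * J * f) * W * J := by simp only [mul_assoc]
      _ = W * (J * f * J) * W * J := by rw [hb1]
      _ = W * J * f * (J * W * J) := by simp only [mul_assoc]
      _ = W * J * f * (W * J * W) := by rw [hb2]
      _ = _ := by simp only [mul_assoc]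
  calc k * (f * W) * k⁻¹ * (k * J * (f * W) * (J * k⁻¹)) = k * (f * W * (J * (f * W) * J)) * k⁻¹ := by
        simp only [mul_assoc, inv_mul_cancel_left]
    _ = k * (W * J * (f * W) * (J * W)) * k⁻¹ := by rw [key]
    _ = _ := by simp only [mul_assoc]

end main

end H93.YGlue
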