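import Cfsg.Agent.Lib.H93.YGlue

/-!
An affine plane of order three of conjugates of the involution `z` forces `z = 1`.
-/

set_option autoImplicit false
set_option maxRecDepth 100000

noncomputable section

namespace H93.YPlane

open Cfsg.Spor H93.YGlue

/-- product of a word in `G` -/
def wd (l : List Fi23.Gen) : G := (l.map s).prod

theorem wd_append (l m : List Fi23.Gen) : wd (l ++ m) = wd l * wd m := by
  simp [wd]

theorem wd_single (x : Fi23.Gen) : wd [x] = s x := by simp [wd]

theorem wd_inv (l : List Fi23.Gen) : (wd l)⁻¹ = wd l.reverse := by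
  induction l with
  | nil => simp [wd]
  | cons x l ih =>
    have e : wd (x :: l) = s x * wd l := by simp [wd]
    rw [e, mul_inv_rev, ih, s_inv, List.reverse_cons, wd_append, wd_single]

theorem π_wd (l : List Fi23.Gen) : π (wd l) = (l.map t).prod := by
  unfold wd
  rw [map_list_prod, List.map_map]
  congr 1

/-- the word of `w1` -/
def lW : List Fi23.Gen := (List.replicate 9 [.d, .e, .h, .c, .f, .i, .g]).flatten

theorem wd_lW : wd lW = w1 := by
  unfold w1 lW wd
  simp only [List.replicate, List.flatten_cons, List.flatten_nil, List.map_append, List.prod_append, List.map_cons,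
    List.map_nil, List.prod_cons, List.prod_nil, mul_one, pow_succ, pow_zero, one_mul, mul_assoc]

def lD : List Fi23.Gen := [.g, .f, .e, .d, .h, .i, .c, .d, .h, .b, .c, .d, .e, .f, .g]
def lE : List Fi23.Gen := [.d, .h, .g, .f, .c, .d, .e, .b, .c, .d, .h, .i, .h, .d, .e, .c, .d, .h, .b, .c, .d, .e, .f, .g]
def lB : List Fi23.Gen := [.d, .e, .c, .d, .h, .f, .g, .e, .f, .d, .e, .c, .d, .h, .i, .h, .d, .e, .c, .d, .h, .b, .c, .d, .e, .f, .g]
def lC : List Fi23.Gen := [.g, .f, .e, .d, .h, .i, .e, .d, .h, .f, .g, .e, .f, .d, .e, .c, .d, .h, .b, .c, .d, .e, .f, .g, .j, .d, .h, .g, .f, .c, .d, .e, .b, .c, .d, .h, .i, .h, .d, .e, .c, .d, .h, .b, .c, .d, .e, .f, .g]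

def lJ : List Fi23.Gen := [.j]

/-- the words that have to fix the base point -/
def c1 : List Fi23.Gen := (lE ++ lJ).reverse ++ (lJ ++ lB ++ lJ)
def c2 : List Fi23.Gen := (lD ++ lJ).reverse ++ (lJ ++ lB ++ lW ++ lJ)
def c3 : List Fi23.Gen := (lD ++ lW ++ lJ).reverse ++ lC
def c4 : List Fi23.Gen := (lE ++ lW ++ lJ).reverse ++ (lC ++ lJ)
def c5 : List Fi23.Gen := (lW ++ lJ).reverse ++ (lC ++ lW ++ lJ)
/-- the words that have to fix the base point -/
def chk : List (List Fi23.Gen) := [c1, c2, c3, c4, c5]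

theorem wd_lJ : wd lJ = s .j := wd_single .j

theorem mem_Lb {l : List Fi23.Gen} (h : (l.all fun x => decide (x ≠ .j)) = true) : (l.map t).prod ∈ Lb := by
  apply Subgroup.list_prod_mem
  intro x hx
  obtain ⟨y, hy, rfl⟩ := List.mem_map.1 hx
  rw [List.all_eq_true] at h
  exact Subgroup.subset_closure ⟨y, of_decide_eq_true (h y hy), rfl⟩

section main

variable {P : Type*} [Group P] {κ : G →* P} {f : P} (hj : (t .j * π w1) ^ 3 = 1)
  (hst : ∀ w ∈ chk, (w.map t).prod ∈ Lb) (hf : f * f = 1)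
  (hfc : ∀ x, x ≠ Fi23.Gen.j → Commute f (κ (s x))) (hfj : (κ (s .j) * f) ^ 3 = 1)

include hfc in
theorem same {u v : List Fi23.Gen} (h : ((u.reverse ++ v).map t).prod ∈ Lb) : zet κ f (wd u) = zet κ f (wd v) := by
  apply zet_same hfc
  rw [← map_inv, wd_inv, ← map_mul, ← wd_append, π_wd]
  exact h

theorem final_comm {a b c d e g h : P} (ha : a * a = 1) (hb : b * b = 1) (hc : c * c = 1)
    (hd : d * d = 1) (he : e * e = 1) (hg : g * g = 1) (hh : h * h = 1)
    (A : a * b = c) (B : b * g = d) (C : e * h = c) (D : a * d = e) (E : a * g = h) : a = 1 := by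
  -- a = ζ00, b = ζ10, c = ζ20, d = ζ01, e = ζ02, g = ζ22, h = ζ11
  have inv : ∀ {x : P}, x * x = 1 → x⁻¹ = x := fun hx => inv_eq_of_mul_eq_one_left hx
  have comm : ∀ {x y z : P}, x * x = 1 → y * y = 1 → z * z = 1 → x * y = z → y * x = x * y := by
    intro x y z hx hy hz h
    have h1 : (x * y)⁻¹ = x * y := by rw [h]; exact inv hz
    rw [mul_inv_rev, inv hx, inv hy] at h1
    exact h1
  have c1 := comm ha hd he D  -- d * a = a * d
  have c2 := comm ha hg hh E  -- g * a = a * g
  have c3 := comm hb hg hd B  -- g * b = b * g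
  have c4 : g * d = d * g := by rw [← B, ← mul_assoc, c3]
  have hb' : b = d * g := by rw [← B, mul_assoc, hg, mul_one]
  have h1 : a * b = (a * d) * (a * g) := by rw [A, ← C, ← D, ← E]
  rw [hb'] at h1
  -- a * (d * g) = a * d * (a * g)
  have h2 : d * g = d * (a * g) := by
    have := mul_left_cancel (a := a) (b := d * g) (c := d * (a * g)) (by rw [h1, mul_assoc])
    exact this
  have h3 : g = a * g := mul_left_cancel h2
  have h4 : a * g * g⁻¹ = g * g⁻¹ := by rw [← h3]
  rwa [mul_inv_cancel_right, mul_inv_cancel] at h4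

include hj hst hf hfc hfj in
theorem main : f = κ w1 := by
  have sq := zet_sq (κ := κ) (f := f) hf hfc
  have hA := zet_line hj hf hfc hfj (wd [])
  have hD := zet_line hj hf hfc hfj (wd lD)
  have hE := zet_line hj hf hfc hfj (wd lE)
  have hB := zet_line hj hf hfc hfj (wd (lJ ++ lB))
  have hC := zet_line hj hf hfc hfj (wd lC)
  rw [← wd_lJ, ← wd_lW] at hA hD hE hB hC
  simp only [← wd_append] at hA hD hE hB hC
  have e1 : zet κ f (wd lD) = zet κ f (wd []) := (same hfc (mem_Lb (by decide))).symm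
  have e2 : zet κ f (wd lE) = zet κ f (wd []) := (same hfc (mem_Lb (by decide))).symm
  have e3 : zet κ f (wd (lJ ++ lB)) = zet κ f (wd lJ) := by
    symm
    apply zet_same hfc
    rw [wd_append, map_mul, inv_mul_cancel_left, π_wd]
    exact mem_Lb (by decide)
  have k1 : zet κ f (wd (lE ++ lJ)) = zet κ f (wd (lJ ++ lB ++ lJ)) := same hfc (hst c1 (by simp [chk]))
  have k2 : zet κ f (wd (lD ++ lJ)) = zet κ f (wd (lJ ++ lB ++ lW ++ lJ)) := same hfc (hst c2 (by simp [chk]))
  have k3 : zet κ f (wd (lD ++ lW ++ lJ)) = zet κ f (wd lC) := same hfc (hst c3 (by simp [chk]))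
  have k4 : zet κ f (wd (lE ++ lW ++ lJ)) = zet κ f (wd (lC ++ lJ)) := same hfc (hst c4 (by simp [chk]))
  have k5 : zet κ f (wd (lW ++ lJ)) = zet κ f (wd (lC ++ lW ++ lJ)) := same hfc (hst c5 (by simp [chk]))
  rw [e1] at hD
  rw [e2] at hE
  rw [e3, ← k1, ← k2] at hB
  rw [← k3, ← k4, ← k5] at hC
  simp only [List.nil_append] at hA
  have hz : zet κ f (wd []) = 1 :=
    final_comm (sq _) (sq _) (sq _) (sq _) (sq _) (sq _) (sq _) hA hB hC hD hE
  have h1 : f * κ w1 = 1 := by
    unfold zet wd at hz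
    simpa using hz
  have h2 : κ w1 * κ w1 = 1 := by rw [← map_mul, factsB.2.1, map_one]
  have h3 := eq_inv_of_mul_eq_one_left h1
  rw [inv_eq_of_mul_eq_one_left h2] at h3
  exact h3

end main

end H93.YPlane
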